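import Mathlib
import Cfsg.Agent.Lib.Cusp.Lift

/-!
Green's construction: for an additive function `π` on monic polynomials, the Möbius transform
`κ` of `g ↦ π (charpoly g)` along the lattice of invariant subspaces is a cuspidal function.
-/

set_option autoImplicit false

namespace H64.Cusp

open Polynomial Module
open scoped Classical

universe v

variable {F : Type*} [Field F] (π : F[X] → ℂ)

noncomputable instance subFintype {V : Type*} [AddCommGroup V] [Module F V] [Finite V] :
    Fintype (Submodule F V) := Fintype.ofFinite _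

noncomputable instance linFintype {V V' : Type*} [AddCommGroup V] [Module F V] [Finite V]
    [AddCommGroup V'] [Module F V'] [Finite V'] : Fintype (V →ₗ[F] V') :=
  haveI : Finite (V →ₗ[F] V') := DFunLike.finite _
  Fintype.ofFinite _

instance quotFinite {V : Type*} [AddCommGroup V] [Module F V] [Finite V] (W : Submodule F V) :
    Finite (V ⧸ W) := Finite.of_surjective _ W.mkQ_surjective

section defs

variable {V V' : Type*} [AddCommGroup V] [Module F V] [Finite V] [AddCommGroup V'] [Module F V']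
  [Finite V']

/-- The value of `π` at the characteristic polynomial on an invariant subspace. -/
noncomputable def P' (g : V →ₗ[F] V) (U : Submodule F V) : ℂ :=
  if h : U ≤ U.comap g then π (g.restrict h).charpoly else 0

/-- The Möbius transform. -/
noncomputable def κ' (g : V →ₗ[F] V) (U : Submodule F V) : ℂ :=
  P' π g U - ∑ U' : {U' : Submodule F V // U' < U ∧ U' ≤ U'.comap g}, κ' g U'.1
termination_by finrank F U
decreasing_by exact Submodule.finrank_lt_finrank_of_lt U'.2.1

theorem κ'_eq (g : V →ₗ[F] V) (U : Submodule F V) :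
    κ' π g U = P' π g U - ∑ U' : Submodule F V,
      if U' < U ∧ U' ≤ U'.comap g then κ' π g U' else 0 := by
  rw [κ', ← Finset.sum_filter, Finset.sum_subtype (p := fun U' => U' < U ∧ U' ≤ U'.comap g)]
  simp

theorem sum_κ' (g : V →ₗ[F] V) {U : Submodule F V} (h : U ≤ U.comap g) :
    ∑ U' : Submodule F V, (if U' ≤ U ∧ U' ≤ U'.comap g then κ' π g U' else 0) =
      π (g.restrict h).charpoly := by
  have h1 : P' π g U = π (g.restrict h).charpoly := dif_pos h
  rw [← h1, sub_eq_iff_eq_add'.1 (κ'_eq π g U).symm]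
  rw [← Finset.add_sum_erase _ _ (Finset.mem_univ U), if_pos ⟨le_rfl, h⟩,
    ← Finset.add_sum_erase _ _ (Finset.mem_univ U), if_neg (fun h => lt_irrefl _ h.1), zero_add,
    add_comm]
  congr 1
  refine Finset.sum_congr rfl fun U' hU' => ?_
  simp only [lt_iff_le_and_ne, Finset.ne_of_mem_erase hU', Ne, not_false_eq_true, and_true]

theorem inv_map_iff {g : V →ₗ[F] V} {g' : V' →ₗ[F] V'} {i : V' →ₗ[F] V}
    (hi : Function.Injective i) (h : ∀ x, i (g' x) = g (i x)) (U : Submodule F V') :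
    U.map i ≤ (U.map i).comap g ↔ U ≤ U.comap g' := by
  constructor
  · intro h1 x hx
    obtain ⟨y, hy, e⟩ := h1 (Submodule.mem_map_of_mem hx)
    rw [← h] at e
    rw [Submodule.mem_comap, ← hi e]; exact hy
  · rintro h1 _ ⟨x, hx, rfl⟩
    exact ⟨g' x, h1 hx, h x⟩

theorem κ'_map {g : V →ₗ[F] V} {g' : V' →ₗ[F] V'} {i : V' →ₗ[F] V}
    (hi : Function.Injective i) (h : ∀ x, i (g' x) = g (i x)) (U : Submodule F V') :
    κ' π g (U.map i) = κ' π g' U := by
  induction U using WellFoundedLT.induction with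
  | _ U ih =>
  rw [κ'_eq, κ'_eq π g']
  congr 1
  · rw [P', P']
    by_cases hU : U ≤ U.comap g'
    · rw [dif_pos hU, dif_pos ((inv_map_iff hi h U).2 hU)]
      congr 1
      symm
      exact charpoly_eq_of_equiv (U.equivMapOfInjective i hi) fun x => Subtype.ext (h x)
    · rw [dif_neg hU, dif_neg (mt (inv_map_iff hi h U).1 hU)]
  · symm
    refine Fintype.sum_of_injective (fun U' : Submodule F V' => U'.map i)
      (Submodule.map_injective_of_injective hi) _ _ (fun U' hU' => if_neg ?_) fun U' => ?_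
    · rintro ⟨h1, -⟩
      exact hU' ⟨U'.comap i, Submodule.map_comap_eq_of_le
        (h1.le.trans (LinearMap.map_le_range))⟩
    · simp only [inv_map_iff hi h, Submodule.map_lt_map_iff_of_injective hi]
      split_ifs with h1
      · exact (ih _ h1.1).symm
      · rfl

/-- Green's function. -/
noncomputable def κ (g : V →ₗ[F] V) : ℂ := κ' π g ⊤

theorem κ'_range {g : V →ₗ[F] V} {g' : V' →ₗ[F] V'} {i : V' →ₗ[F] V}
    (hi : Function.Injective i) (h : ∀ x, i (g' x) = g (i x)) :
    κ' π g (LinearMap.range i) = κ π g' := by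
  rw [κ, ← κ'_map π hi h, Submodule.map_top]

theorem κ'_restrict {g : V →ₗ[F] V} {U : Submodule F V} (h : U ≤ U.comap g) :
    κ' π g U = κ π (g.restrict h) := by
  rw [← κ'_range π (i := U.subtype) (g := g) U.subtype_injective (fun _ => rfl),
    Submodule.range_subtype]

theorem κ_equiv {g : V →ₗ[F] V} {g' : V' →ₗ[F] V'} (e : V' ≃ₗ[F] V)
    (h : ∀ x, e (g' x) = g (e x)) : κ π g = κ π g' := by
  rw [← κ'_range π (i := e.toLinearMap) e.injective h, LinearEquiv.range, κ]

theorem sum_κ (g : V →ₗ[F] V) :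
    ∑ U : Submodule F V, (if U ≤ U.comap g then κ' π g U else 0) = π g.charpoly := by
  have := sum_κ' π g (U := ⊤) (fun _ _ => Submodule.mem_top)
  simp only [le_top, true_and] at this
  rw [this]
  congr 1
  exact charpoly_eq_of_equiv Submodule.topEquiv fun _ => rfl

theorem κ'_congr {g g' : V →ₗ[F] V} {U : Submodule F V} (h : ∀ x ∈ U, g x = g' x) :
    (if U ≤ U.comap g then κ' π g U else 0) = if U ≤ U.comap g' then κ' π g' U else 0 := by
  have h1 : U ≤ U.comap g ↔ U ≤ U.comap g' :=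
    forall_congr' fun x => forall_congr' fun hx => by simp only [Submodule.mem_comap, h x hx]
  by_cases hU : U ≤ U.comap g
  · rw [if_pos hU, if_pos (h1.1 hU), κ'_restrict π hU, κ'_restrict π (h1.1 hU)]
    congr 1
    exact LinearMap.ext fun x => Subtype.ext (h x x.2)
  · rw [if_neg hU, if_neg (mt h1.2 hU)]

variable {π}

theorem κ'_bot (hπ : ∀ a b : F[X], a.Monic → b.Monic → π (a * b) = π a + π b) (g : V →ₗ[F] V) :
    κ' π g ⊥ = 0 := by
  rw [κ'_eq, P', dif_pos bot_le]
  have h1 : ∀ f : (⊥ : Submodule F V) →ₗ[F] (⊥ : Submodule F V), f.charpoly = 1 := fun f =>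
    (LinearMap.charpoly_monic _).natDegree_eq_zero.1 (by
      rw [LinearMap.charpoly_natDegree, finrank_bot])
  have h2 := hπ 1 1 monic_one monic_one
  rw [one_mul, left_eq_add] at h2
  rw [h1, h2]
  simp

/-- The elements of the unipotent radical (minus the identity). -/
def emb (W : Submodule F V) (α : (V ⧸ W) →ₗ[F] W) : V →ₗ[F] V := W.subtype ∘ₗ α ∘ₗ W.mkQ

omit [Finite V] in
theorem emb_apply (W : Submodule F V) (α : (V ⧸ W) →ₗ[F] W) (x : V) :
    emb W α x = α (W.mkQ x) := rfl

omit [Finite V] in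
theorem emb_mem (W : Submodule F V) (α : (V ⧸ W) →ₗ[F] W) (x : V) : emb W α x ∈ W :=
  (α (W.mkQ x)).2

omit [Finite V] in
theorem emb_of_mem {W : Submodule F V} (α : (V ⧸ W) →ₗ[F] W) {x : V} (hx : x ∈ W) :
    emb W α x = 0 := by
  rw [emb_apply, Submodule.mkQ_apply, (Submodule.Quotient.mk_eq_zero W).2 hx, map_zero]; rfl

omit [Finite V] in
theorem emb_add (W : Submodule F V) (α β : (V ⧸ W) →ₗ[F] W) :
    emb W (α + β) = emb W α + emb W β := LinearMap.ext fun _ => rfl

omit [Finite V] in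
theorem add_emb_inv {W : Submodule F V} {g : V →ₗ[F] V} (hg : W ≤ W.comap g)
    (α : (V ⧸ W) →ₗ[F] W) : W ≤ W.comap (g + emb W α) := fun x hx =>
  W.add_mem (hg hx) (emb_mem W α x)

theorem charpoly_add_emb {W : Submodule F V} {g : V →ₗ[F] V} (hg : W ≤ W.comap g)
    (α : (V ⧸ W) →ₗ[F] W) : (g + emb W α).charpoly = g.charpoly := by
  rw [charpoly_eq_mul W _ (add_emb_inv hg α), charpoly_eq_mul W _ hg]
  congr 2
  · exact LinearMap.ext fun x => Subtype.ext (by
      change g x + emb W α x = g x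
      rw [emb_of_mem α x.2, add_zero])
  · refine Submodule.linearMap_qext _ (LinearMap.ext fun x => ?_)
    change W.mkQ (g x + emb W α x) = W.mkQ (g x)
    rw [map_add, Submodule.mkQ_apply W (emb W α x), (Submodule.Quotient.mk_eq_zero W).2
      (emb_mem W α x), add_zero]

theorem card_restrict (U : Submodule F V) (s : U →ₗ[F] V') :
    (Finset.univ.filter fun α : V →ₗ[F] V' => ∀ x : U, α x = s x).card =
      (Finset.univ.filter fun α : V →ₗ[F] V' => ∀ x : U, α x = 0).card := by
  obtain ⟨α0, h0⟩ := LinearMap.exists_extend s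
  have h1 : ∀ x : U, α0 x = s x := fun x => LinearMap.congr_fun h0 x
  refine Finset.card_bijective (fun α => α - α0) (Equiv.subRight α0).bijective fun α => ?_
  simp only [Finset.mem_filter, Finset.mem_univ, true_and, LinearMap.sub_apply, h1, sub_eq_zero]

omit [Finite V] in
theorem exists_section {U W : Submodule F V} (h : U ⊓ W = ⊥) :
    ∃ σ : U.map W.mkQ →ₗ[F] V, (∀ x, σ x ∈ U) ∧ ∀ x, W.mkQ (σ x) = x := by
  have hi : Function.Injective (W.mkQ ∘ₗ U.subtype) := by
    rw [← LinearMap.ker_eq_bot, LinearMap.ker_comp, Submodule.ker_mkQ, eq_bot_iff]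
    intro x hx
    have : (x : V) ∈ U ⊓ W := ⟨x.2, hx⟩
    rw [h] at this
    exact Subtype.ext this
  have hr : LinearMap.range (W.mkQ ∘ₗ U.subtype) = U.map W.mkQ := by
    rw [LinearMap.range_comp, Submodule.range_subtype]
  let e := (LinearEquiv.ofInjective _ hi).trans (LinearEquiv.ofEq _ _ hr)
  refine ⟨U.subtype ∘ₗ e.symm.toLinearMap, fun x => (e.symm x).2, fun x => ?_⟩
  exact congrArg Subtype.val (e.apply_symm_apply x)

omit [Finite V] in
theorem eq_of_mkQ_eq {U W : Submodule F V} (h : U ⊓ W = ⊥) {x y : V} (hx : x ∈ U) (hy : y ∈ U)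
    (e : W.mkQ x = W.mkQ y) : x = y := by
  have : x - y ∈ U ⊓ W := ⟨U.sub_mem hx hy, (Submodule.Quotient.eq W).1 e⟩
  rw [h] at this
  exact sub_eq_zero.1 this

theorem card_inv {U W : Submodule F V} (h : U ⊓ W = ⊥) {g : V →ₗ[F] V} (hg : W ≤ W.comap g)
    (hU : U.map W.mkQ ≤ (U.map W.mkQ).comap (W.mapQ W g hg)) :
    (Finset.univ.filter fun α : (V ⧸ W) →ₗ[F] W => U ≤ U.comap (g + emb W α)).card =
      (Finset.univ.filter fun α : (V ⧸ W) →ₗ[F] W => ∀ x : U.map W.mkQ, α x = 0).card := by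
  obtain ⟨σ, h1, h2⟩ := exists_section h
  have h3 : ∀ x, W.mkQ (g x) = W.mapQ W g hg (W.mkQ x) := fun _ => rfl
  let s : U.map W.mkQ →ₗ[F] W :=
    (σ ∘ₗ (W.mapQ W g hg).restrict hU - g ∘ₗ σ).codRestrict W fun x => by
      rw [← Submodule.Quotient.mk_eq_zero, ← Submodule.mkQ_apply]
      simp only [LinearMap.sub_apply, LinearMap.comp_apply, map_sub, h2, h3]
      exact sub_self _
  have hs : ∀ x, (s x : V) = σ ((W.mapQ W g hg).restrict hU x) - g (σ x) := fun _ => rfl
  rw [← card_restrict _ s]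
  congr 1
  ext α
  simp only [Finset.mem_filter, Finset.mem_univ, true_and]
  constructor
  · intro hα x
    apply Subtype.ext
    rw [hs, eq_sub_iff_add_eq',
      ← eq_of_mkQ_eq h (hα (h1 x)) (h1 ((W.mapQ W g hg).restrict hU x))]
    · rw [LinearMap.add_apply, emb_apply, h2]
    · rw [h2, LinearMap.add_apply, map_add, h3, h2, Submodule.mkQ_apply W (emb W α _),
        (Submodule.Quotient.mk_eq_zero W).2 (emb_mem W α _), add_zero]
      rfl
  · intro hα x hx
    have e := eq_of_mkQ_eq h hx (h1 ⟨_, Submodule.mem_map_of_mem hx⟩)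
      (h2 ⟨_, Submodule.mem_map_of_mem hx⟩).symm
    have e2 := congrArg Subtype.val (hα ⟨_, Submodule.mem_map_of_mem hx⟩)
    rw [hs, ← e] at e2
    rw [Submodule.mem_comap, LinearMap.add_apply, emb_apply, e2, add_sub_cancel]
    exact h1 _

theorem card_lifts (W : Submodule F V) (Q : Submodule F (V ⧸ W)) :
    (Finset.univ.filter fun U : Submodule F V => U ⊓ W = ⊥ ∧ U.map W.mkQ = Q).card *
      (Finset.univ.filter fun α : (V ⧸ W) →ₗ[F] W => ∀ x : Q, α x = 0).card =
      Fintype.card ((V ⧸ W) →ₗ[F] W) := by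
  obtain ⟨r, hr⟩ := LinearMap.exists_rightInverse_of_surjective W.mkQ W.range_mkQ
  have hr' : ∀ x, W.mkQ (r x) = x := LinearMap.congr_fun hr
  let Φ : ((V ⧸ W) →ₗ[F] W) → Submodule F V := fun β => Q.map (r + W.subtype ∘ₗ β)
  have h0 : ∀ (β : (V ⧸ W) →ₗ[F] W) x, W.mkQ ((r + W.subtype ∘ₗ β) x) = x := by
    intro β x
    rw [LinearMap.add_apply, map_add, hr', Submodule.mkQ_apply, add_eq_left,
      Submodule.Quotient.mk_eq_zero]
    exact (β x).2
  rw [← Finset.card_univ, Finset.card_eq_sum_card_fiberwise (f := Φ) (s := Finset.univ)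
    (t := Finset.univ.filter fun U : Submodule F V => U ⊓ W = ⊥ ∧ U.map W.mkQ = Q),
    ← smul_eq_mul, ← Finset.sum_const]
  · refine Finset.sum_congr rfl fun U hU => ?_
    simp only [Finset.mem_filter, Finset.mem_univ, true_and] at hU
    obtain ⟨hU, rfl⟩ := hU
    obtain ⟨σ, h1, h2⟩ := exists_section hU
    let s : U.map W.mkQ →ₗ[F] W := (σ - r ∘ₗ (U.map W.mkQ).subtype).codRestrict W fun x => by
      rw [← Submodule.Quotient.mk_eq_zero, ← Submodule.mkQ_apply]
      simp only [LinearMap.sub_apply, LinearMap.comp_apply, map_sub, h2, hr']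
      exact sub_self _
    have hs : ∀ x, (s x : V) = σ x - r x := fun _ => rfl
    rw [← card_restrict _ s]
    congr 1
    ext β
    simp only [Finset.mem_filter, Finset.mem_univ, true_and]
    constructor
    · intro hβ
      have e : ∀ x : U.map W.mkQ, (r + W.subtype ∘ₗ β) x = σ x := fun x => by
        have := congrArg Subtype.val (hβ x)
        rw [hs, eq_sub_iff_add_eq'] at this
        exact this
      apply le_antisymm
      · rintro _ ⟨x, hx, rfl⟩
        exact e ⟨x, hx⟩ ▸ h1 _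
      · intro x hx
        exact ⟨_, Submodule.mem_map_of_mem hx, (e ⟨_, Submodule.mem_map_of_mem hx⟩).trans
          (eq_of_mkQ_eq hU (h1 _) hx (h2 _))⟩
    · intro hβ x
      apply Subtype.ext
      rw [hs, eq_sub_iff_add_eq']
      exact eq_of_mkQ_eq hU (hβ.le (Submodule.mem_map_of_mem x.2)) (h1 x)
        ((h0 β x).trans (h2 x).symm)
  · intro β _
    simp only [Finset.coe_filter, Finset.mem_univ, true_and, Set.mem_setOf_eq]
    constructor
    · rw [eq_bot_iff]
      rintro _ ⟨⟨x, -, rfl⟩, hx⟩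
      have := h0 β x
      rw [Submodule.mkQ_apply, (Submodule.Quotient.mk_eq_zero W).2 hx] at this
      rw [← this, map_zero]; exact Submodule.zero_mem _
    · rw [← Submodule.map_comp]
      have : W.mkQ ∘ₗ (r + W.subtype ∘ₗ β) = LinearMap.id := LinearMap.ext (h0 β)
      rw [this, Submodule.map_id]

theorem sum_disjoint (π : F[X] → ℂ) {W : Submodule F V} {g : V →ₗ[F] V} (hg : W ≤ W.comap g) :
    ∑ U : Submodule F V, (if U ⊓ W = ⊥ then ∑ α : (V ⧸ W) →ₗ[F] W,
      (if U ≤ U.comap (g + emb W α) then κ' π (g + emb W α) U else 0) else 0) =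
      Fintype.card ((V ⧸ W) →ₗ[F] W) * π (W.mapQ W g hg).charpoly := by
  rw [← sum_κ π, Finset.mul_sum, ← Finset.sum_filter,
    ← Finset.sum_fiberwise (g := fun U : Submodule F V => U.map W.mkQ)]
  refine Finset.sum_congr rfl fun Q _ => ?_
  rw [← card_lifts W Q, Finset.filter_filter, Nat.cast_mul, mul_assoc, ← nsmul_eq_mul,
    ← Finset.sum_const]
  refine Finset.sum_congr rfl fun U hU => ?_
  simp only [Finset.mem_filter, Finset.mem_univ, true_and] at hU
  obtain ⟨hU, rfl⟩ := hU
  have h3 : ∀ α x, W.mkQ ((g + emb W α) x) = W.mapQ W g hg (W.mkQ x) := fun α x => by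
    rw [LinearMap.add_apply, map_add, Submodule.mkQ_apply W (emb W α _),
      (Submodule.Quotient.mk_eq_zero W).2 (emb_mem W α _), add_zero]
    rfl
  split_ifs with hQ
  · rw [← card_inv hU hg hQ, ← Finset.sum_filter, ← nsmul_eq_mul, ← Finset.sum_const]
    refine Finset.sum_congr rfl fun α hα => ?_
    simp only [Finset.mem_filter, Finset.mem_univ, true_and] at hα
    rw [κ'_restrict π hα, ← κ'_range π (i := W.mkQ ∘ₗ U.subtype) (g := W.mapQ W g hg)
      (fun x y e => Subtype.ext (eq_of_mkQ_eq hU x.2 y.2 e)) (fun x => h3 α x),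
      LinearMap.range_comp, Submodule.range_subtype]
  · rw [mul_zero]
    refine Finset.sum_eq_zero fun α _ => if_neg fun hα => hQ ?_
    rintro _ ⟨x, hx, rfl⟩
    exact ⟨_, hα hx, h3 α x⟩

end defs

variable {π}

theorem cusp_aux (hπ : ∀ a b : F[X], a.Monic → b.Monic → π (a * b) = π a + π b) (n : ℕ) :
    ∀ (V : Type v) [AddCommGroup V] [Module F V] [Finite V], finrank F V = n →
      ∀ (W : Submodule F V), W ≠ ⊥ → W ≠ ⊤ → ∀ g : V →ₗ[F] V, W ≤ W.comap g →
      ∑ α : (V ⧸ W) →ₗ[F] W, κ π (g + emb W α) = 0 := by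
  induction n using Nat.strong_induction_on with
  | _ n ih =>
  intro V _ _ _ hn W h0 h1 g hg
  let S : Submodule F V → ℂ := fun U => ∑ α : (V ⧸ W) →ₗ[F] W,
    if U ≤ U.comap (g + emb W α) then κ' π (g + emb W α) U else 0
  have e1 : ∑ U, S U = Fintype.card ((V ⧸ W) →ₗ[F] W) * π g.charpoly := by
    rw [Finset.sum_comm]
    simp only [sum_κ, charpoly_add_emb hg, Finset.sum_const, Finset.card_univ, nsmul_eq_mul]
  have e2 : ∑ U, (if U ≤ W then S U else 0) =
      Fintype.card ((V ⧸ W) →ₗ[F] W) * π (g.restrict hg).charpoly := by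
    rw [← sum_κ' π g hg, Finset.mul_sum]
    refine Finset.sum_congr rfl fun U _ => ?_
    by_cases hU : U ≤ W
    · simp only [hU, if_true, true_and, S]
      rw [← nsmul_eq_mul, ← Finset.card_univ, ← Finset.sum_const]
      exact Finset.sum_congr rfl fun α _ => κ'_congr π fun x hx => by
        rw [LinearMap.add_apply, emb_of_mem α (hU hx), add_zero]
    · simp [hU]
  have e3 := sum_disjoint π hg
  have e4 : ∀ U, S U = (if U ≤ W then S U else 0) + (if U ⊓ W = ⊥ then S U else 0) +
      if U = ⊤ then S U else 0 := by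
    intro U
    by_cases hb : U = ⊥
    · have : S U = 0 := by simp [S, hb, κ'_bot hπ]
      simp [this]
    by_cases a1 : U ≤ W
    · rw [if_pos a1, if_neg (by rwa [inf_eq_left.2 a1]),
        if_neg (fun e : U = ⊤ => h1 (top_le_iff.1 (e ▸ a1)))]
      simp
    by_cases a2 : U ⊓ W = ⊥
    · rw [if_neg a1, if_pos a2, if_neg (fun e : U = ⊤ => h0 (by simpa [e] using a2))]
      simp
    by_cases a3 : U = ⊤
    · rw [if_neg a1, if_neg a2, if_pos a3]
      simp
    rw [if_neg a1, if_neg a2, if_neg a3, add_zero, add_zero]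
    let W' : Submodule F U := W.comap U.subtype
    have b0 : W' ≠ ⊥ := fun e => a2 (by
      rw [← Submodule.map_comap_subtype, show W.comap U.subtype = ⊥ from e, Submodule.map_bot])
    have b1 : W' ≠ ⊤ := fun e => a1 fun x hx => (e.ge (Submodule.mem_top (x := ⟨x, hx⟩)) :)
    let inc : W' →ₗ[F] W := (U.subtype ∘ₗ W'.subtype).codRestrict W fun x => x.2
    let j : (U ⧸ W') →ₗ[F] V ⧸ W := W'.mapQ W U.subtype le_rfl
    have hj : Function.Injective j := by
      rw [← LinearMap.ker_eq_bot]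
      exact Submodule.ker_liftQ_eq_bot _ _ _ (by
        rw [LinearMap.ker_comp, Submodule.ker_mkQ])
    obtain ⟨jl, hjl⟩ := LinearMap.exists_leftInverse_of_injective j (LinearMap.ker_eq_bot.2 hj)
    let T : ((V ⧸ W) →ₗ[F] W) → ℂ := fun α =>
      if U ≤ U.comap (g + emb W α) then κ' π (g + emb W α) U else 0
    have hmem : ∀ (γ : (U ⧸ W') →ₗ[F] W') x, emb W (inc ∘ₗ γ ∘ₗ jl) x ∈ U := fun γ x =>
      (γ (jl (W.mkQ x))).1.2
    have key : ∀ α, ∑ γ : (U ⧸ W') →ₗ[F] W', T (α + inc ∘ₗ γ ∘ₗ jl) = 0 := by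
      intro α
      by_cases hα : U ≤ U.comap (g + emb W α)
      · rw [← ih _ (hn ▸ Submodule.finrank_lt a3) U rfl W' b0 b1 ((g + emb W α).restrict hα)
          fun x hx => add_emb_inv hg α hx]
        refine Finset.sum_congr rfl fun γ _ => ?_
        have hα' : U ≤ U.comap (g + emb W (α + inc ∘ₗ γ ∘ₗ jl)) := fun x hx => by
          rw [emb_add, ← add_assoc]
          exact U.add_mem (hα hx) (hmem γ x)
        simp only [T]
        rw [if_pos hα', κ'_restrict π hα']
        congr 1
        refine LinearMap.ext fun x => Subtype.ext ?_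
        have h2 : jl (W.mkQ x) = W'.mkQ x := LinearMap.congr_fun hjl (W'.mkQ x)
        change g x + (emb W α x + (γ (jl (W.mkQ x))).1.1) = g x + emb W α x + (γ (W'.mkQ x)).1.1
        rw [h2, add_assoc]
      · refine Finset.sum_eq_zero fun γ _ => if_neg fun h => hα fun x hx => ?_
        have := U.sub_mem (h hx) (hmem γ x)
        rwa [emb_add, ← add_assoc, LinearMap.add_apply, add_sub_cancel_right] at this
    have h5 : ∑ γ : (U ⧸ W') →ₗ[F] W', ∑ α, T (α + inc ∘ₗ γ ∘ₗ jl) = 0 := by
      rw [Finset.sum_comm]; simp only [key, Finset.sum_const_zero]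
    have h6 : ∀ γ : (U ⧸ W') →ₗ[F] W', ∑ α, T (α + inc ∘ₗ γ ∘ₗ jl) = S U := fun γ =>
      Fintype.sum_equiv (Equiv.addRight _) _ _ fun _ => rfl
    simp only [h6, Finset.sum_const, nsmul_eq_mul] at h5
    exact (mul_eq_zero.1 h5).resolve_left (Nat.cast_ne_zero.2 Fintype.card_ne_zero)
  rw [Finset.sum_congr rfl fun U _ => e4 U, Finset.sum_add_distrib, Finset.sum_add_distrib, e2, e3,
    charpoly_eq_mul W g hg, hπ _ _ (LinearMap.charpoly_monic _) (LinearMap.charpoly_monic _),
    mul_add, add_eq_left, Finset.sum_ite_eq', if_pos (Finset.mem_univ _)] at e1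
  simpa [S, κ] using e1

/-- Green's function is cuspidal. -/
theorem cusp (hπ : ∀ a b : F[X], a.Monic → b.Monic → π (a * b) = π a + π b) {V : Type*}
    [AddCommGroup V] [Module F V] [Finite V] {W : Submodule F V} (h0 : W ≠ ⊥) (h1 : W ≠ ⊤)
    {g : V →ₗ[F] V} (hg : W ≤ W.comap g) : ∑ α : (V ⧸ W) →ₗ[F] W, κ π (g + emb W α) = 0 :=
  cusp_aux hπ _ V rfl W h0 h1 g hg

end H64.Cusp
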