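import Mathlib
import Cfsg.Agent.Lib.Cusp.Kap

/-!
Values of Green's function at the identity and at cyclic endomorphisms; the sum of a cuspidal
function over all endomorphisms.
-/

set_option autoImplicit false

namespace H64.Cusp

open Polynomial Module
open scoped Classical

universe v

variable {F : Type*} [Field F] [Fintype F]

section one

variable {V : Type*} [AddCommGroup V] [Module F V] [Finite V]

theorem card_lin {V' : Type*} [AddCommGroup V'] [Module F V'] [Finite V'] :
    Fintype.card (V →ₗ[F] V') = Fintype.card F ^ (finrank F V * finrank F V') := by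
  rw [Module.card_eq_pow_finrank (K := F), Module.finrank_linearMap]

theorem card_kill {V' : Type*} [AddCommGroup V'] [Module F V'] [Finite V'] (Q : Submodule F V) :
    (Finset.univ.filter fun α : V →ₗ[F] V' => ∀ x : Q, α x = 0).card *
      Fintype.card (Q →ₗ[F] V') = Fintype.card (V →ₗ[F] V') := by
  rw [← Finset.card_univ (α := V →ₗ[F] V'), Finset.card_eq_sum_card_fiberwise
    (f := fun α : V →ₗ[F] V' => α ∘ₗ Q.subtype) (s := Finset.univ) (t := Finset.univ)
    (fun _ _ => Finset.mem_coe.2 (Finset.mem_univ _)), mul_comm, ← Finset.card_univ,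
    ← smul_eq_mul, ← Finset.sum_const]
  refine Finset.sum_congr rfl fun s _ => ?_
  rw [← card_restrict Q s]
  congr 1
  ext α
  simp only [Finset.mem_filter, Finset.mem_univ, true_and]
  exact ⟨fun h => LinearMap.ext h, fun h => LinearMap.congr_fun h⟩

theorem card_lifts' (W : Submodule F V) (Q : Submodule F (V ⧸ W)) :
    (Finset.univ.filter fun U : Submodule F V => U ⊓ W = ⊥ ∧ U.map W.mkQ = Q).card =
      Fintype.card F ^ (finrank F Q * finrank F W) := by
  have h1 := card_lifts W Q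
  have h2 := card_kill (V' := W) Q
  rw [← h2, mul_comm] at h1
  rw [← card_lin]
  exact Nat.eq_of_mul_eq_mul_left (Finset.card_pos.2 ⟨0, by simp⟩) h1

theorem sum_finrank_line (L : Submodule F V) (hL : finrank F L = 1) (f : ℕ → ℂ) :
    ∑ U : Submodule F V, f (finrank F U) = ∑ Q : Submodule F (V ⧸ L),
      (f (finrank F Q + 1) + (Fintype.card F : ℂ) ^ finrank F Q * f (finrank F Q)) := by
  rw [← Finset.sum_fiberwise (g := fun U : Submodule F V => U.map L.mkQ)]
  refine Finset.sum_congr rfl fun Q _ => ?_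
  have key : ∀ U : Submodule F V, finrank F U = finrank F (U.map L.mkQ) + finrank F (U ⊓ L :) := by
    intro U
    have := LinearMap.finrank_range_add_finrank_ker (L.mkQ ∘ₗ U.subtype)
    rw [LinearMap.range_comp, Submodule.range_subtype, LinearMap.ker_comp, Submodule.ker_mkQ] at this
    rw [← this, ← Submodule.map_comap_subtype, Submodule.finrank_map_subtype_eq]
  have hat : IsAtom L := Submodule.isAtom_iff_finrank_eq_one.2 hL
  rw [← Finset.sum_filter_add_sum_filter_not _ (fun U => L ≤ U), Finset.filter_filter,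
    Finset.filter_filter]
  congr 1
  · rw [Finset.sum_eq_single (Q.comap L.mkQ)]
    · rw [key, Submodule.map_comap_eq_of_surjective L.mkQ_surjective,
        inf_eq_right.2 (Submodule.le_comap_mkQ L Q), hL]
    · intro U hU hne
      simp only [Finset.mem_filter, Finset.mem_univ, true_and] at hU
      refine absurd ?_ hne
      rw [← hU.1, Submodule.comap_map_mkQ, sup_eq_right.2 hU.2]
    · intro h
      refine absurd ?_ h
      simp only [Finset.mem_filter, Finset.mem_univ, true_and]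
      exact ⟨Submodule.map_comap_eq_of_surjective L.mkQ_surjective _, Submodule.le_comap_mkQ L Q⟩
  · have h1 := card_lifts' L Q
    rw [hL, mul_one] at h1
    rw [← Nat.cast_pow, ← h1, ← nsmul_eq_mul, ← Finset.sum_const]
    have h2 : ∀ U : Submodule F V, ¬ L ≤ U ↔ U ⊓ L = ⊥ := fun U => by
      rw [hat.not_le_iff_disjoint, disjoint_comm, disjoint_iff]
    refine Finset.sum_congr ?_ fun U hU => ?_
    · ext U; simp only [Finset.mem_filter, Finset.mem_univ, true_and, h2, and_comm]
    · simp only [Finset.mem_filter, Finset.mem_univ, true_and] at hU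
      rw [key, hU.1, hU.2, finrank_bot, add_zero]

variable (F) in
/-- The value at the identity. -/
noncomputable def fq (j : ℕ) : ℂ :=
  if j = 0 then 0 else ∏ i ∈ Finset.Ico 1 j, (1 - (Fintype.card F : ℂ) ^ i)

theorem fq_succ (j : ℕ) :
    fq F (j + 1) + (Fintype.card F : ℂ) ^ j * fq F j = fq F j + if j = 0 then 1 else 0 := by
  by_cases h : j = 0
  · subst h; simp [fq]
  · rw [fq, fq, if_neg h, if_neg h, if_neg (by omega), Finset.prod_Ico_succ_top (by omega)]
    ring

end one

theorem sum_fq (n : ℕ) : ∀ (V : Type v) [AddCommGroup V] [Module F V] [Finite V],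
    finrank F V = n → ∑ U : Submodule F V, fq F (finrank F U) = n := by
  induction n with
  | zero =>
    intro V _ _ _ hn
    refine (Finset.sum_eq_zero fun U _ => ?_).trans Nat.cast_zero.symm
    have := U.finrank_le
    rw [fq, if_pos (by omega)]
  | succ n ih =>
    intro V _ _ _ hn
    obtain ⟨x, hx⟩ := finrank_pos_iff_exists_ne_zero.1 (show 0 < finrank F V by omega)
    have hL := finrank_span_singleton (K := F) hx
    have h1 := (F ∙ x).finrank_quotient_add_finrank
    rw [sum_finrank_line _ hL]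
    simp only [fq_succ, Finset.sum_add_distrib, Submodule.finrank_eq_zero]
    rw [ih _ (by omega)]
    simp

variable {π : F[X] → ℂ}

theorem pi_pow (hπ : ∀ a b : F[X], a.Monic → b.Monic → π (a * b) = π a + π b) {a : F[X]}
    (ha : a.Monic) (n : ℕ) : π (a ^ n) = n * π a := by
  induction n with
  | zero =>
    have h2 := hπ 1 1 monic_one monic_one
    rw [one_mul, left_eq_add] at h2
    simp [h2]
  | succ n ih => rw [pow_succ, hπ _ _ (ha.pow n) ha, ih]; push_cast; ring

theorem κ_id (hπ : ∀ a b : F[X], a.Monic → b.Monic → π (a * b) = π a + π b) (n : ℕ) :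
    ∀ (V : Type v) [AddCommGroup V] [Module F V] [Finite V], finrank F V = n →
      κ π (LinearMap.id : V →ₗ[F] V) = π (X - 1) * fq F n := by
  induction n using Nat.strong_induction_on with
  | _ n ih =>
  intro V _ _ _ hn
  have h1 := sum_κ π (LinearMap.id : V →ₗ[F] V)
  have h2 := sum_fq n V hn
  have h3 : (LinearMap.id : V →ₗ[F] V).charpoly = (X - 1) ^ n := by
    rw [← hn]; exact LinearMap.charpoly_one
  rw [h3, pi_pow hπ (by simpa using monic_X_sub_C (1 : F)), ← h2, Finset.sum_mul,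
    ← Finset.add_sum_erase _ _ (Finset.mem_univ ⊤), ← Finset.add_sum_erase _ _ (Finset.mem_univ ⊤),
    if_pos (by simp), finrank_top, hn] at h1
  rw [mul_comm, κ]
  refine add_right_cancel (h1.trans ?_)
  congr 1
  refine Finset.sum_congr rfl fun U hU => ?_
  have h4 : U ≤ U.comap LinearMap.id := le_rfl
  rw [if_pos h4, κ'_restrict π h4, mul_comm,
    ← ih _ (hn ▸ Submodule.finrank_lt (Finset.ne_of_mem_erase hU)) U rfl]
  rfl

/-! ### cyclic endomorphisms -/

theorem finite_adj {h : F[X]} (hh : h.Monic) : Finite (AdjoinRoot h) :=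
  haveI := hh.finite_adjoinRoot
  Module.finite_of_finite F

variable (π) in
/-- The value of Green's function at a cyclic endomorphism. -/
noncomputable def kc (h : F[X]) : ℂ :=
  if hh : h.Monic then (haveI := finite_adj hh; κ π (H65.cyc h)) else 0

omit [Fintype F] in
theorem finite_div {h : F[X]} (hh : h ≠ 0) : {e : F[X] | e.Monic ∧ e ∣ h}.Finite := by
  have := (Polynomial.fintypeSubtypeMonicDvd h hh).finite
  exact this

/-- Multiplication by `d` from `F[X]/(e)` to `F[X]/(h)`. -/
noncomputable def mulD (h d : F[X]) {e : F[X]} (he : e.Monic) : AdjoinRoot e →ₗ[F] AdjoinRoot h :=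
  (AdjoinRoot.mkₐ h).toLinearMap ∘ₗ LinearMap.mulLeft F d ∘ₗ AdjoinRoot.modByMonicHom he

omit [Fintype F] in
theorem mulD_mk {h d e : F[X]} (he : e.Monic) (hh : h = d * e) (a : F[X]) :
    mulD h d he (AdjoinRoot.mk e a) = AdjoinRoot.mk h (d * a) := by
  change AdjoinRoot.mk h (d * (a %ₘ e)) = _
  rw [AdjoinRoot.mk_eq_mk, modByMonic_eq_sub_mul_div, hh]
  exact ⟨-(a /ₘ e), by ring⟩

omit [Fintype F] in
theorem mem_range_mulD {h d e : F[X]} (he : e.Monic) (hh : h = d * e) (a : F[X]) :
    AdjoinRoot.mk h a ∈ LinearMap.range (mulD h d he) ↔ d ∣ a := by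
  constructor
  · rintro ⟨b, hb⟩
    obtain ⟨b, rfl⟩ := AdjoinRoot.mk_surjective b
    rw [mulD_mk he hh, AdjoinRoot.mk_eq_mk] at hb
    have := (dvd_mul_right d b).sub ((Dvd.intro _ hh.symm).trans hb)
    rwa [sub_sub_cancel] at this
  · rintro ⟨b, rfl⟩
    exact ⟨_, mulD_mk he hh b⟩

theorem sum_kc {h : F[X]} (hh : h.Monic) :
    ∑ e ∈ (finite_div hh.ne_zero).toFinset, kc π e = π h := by
  haveI := finite_adj hh
  have h1 := sum_κ π (H65.cyc h)
  rw [H65.charpoly_cyc hh, ← Finset.sum_filter] at h1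
  rw [← h1]
  have hm : ∀ {e}, e ∈ (finite_div hh.ne_zero).toFinset → e.Monic ∧ h = h /ₘ e * e := by
    intro e he
    rw [Set.Finite.mem_toFinset] at he
    refine ⟨he.1, ?_⟩
    have := modByMonic_add_div h e
    rw [(modByMonic_eq_zero_iff_dvd he.1).2 he.2, zero_add, mul_comm] at this
    exact this.symm
  have hi : ∀ {d e : F[X]} (he : e.Monic), h = d * e →
      ∀ x, mulD h d he (H65.cyc e x) = H65.cyc h (mulD h d he x) := by
    intro d e he hd x
    obtain ⟨a, rfl⟩ := AdjoinRoot.mk_surjective x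
    rw [H65.cyc_apply, H65.cyc_apply, ← AdjoinRoot.mk_X, ← AdjoinRoot.mk_X, ← map_mul,
      mulD_mk he hd, mulD_mk he hd, ← map_mul]
    congr 1; ring
  refine Finset.sum_bij (fun e he => LinearMap.range (mulD h (h /ₘ e) (hm he).1)) ?_ ?_ ?_ ?_
  · intro e he
    simp only [Finset.mem_filter, Finset.mem_univ, true_and]
    rintro _ ⟨x, rfl⟩
    exact ⟨_, hi _ (hm he).2 x⟩
  · intro e he e' he' heq
    have a1 := (mem_range_mulD (hm he).1 (hm he).2 (h /ₘ e')).1
      (heq ▸ (mem_range_mulD (hm he').1 (hm he').2 _).2 dvd_rfl)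
    have a2 := (mem_range_mulD (hm he').1 (hm he').2 (h /ₘ e)).1
      (heq ▸ (mem_range_mulD (hm he).1 (hm he).2 _).2 dvd_rfl)
    have m1 : (h /ₘ e).Monic := (hm he).1.of_mul_monic_right ((hm he).2 ▸ hh)
    have m2 : (h /ₘ e').Monic := (hm he').1.of_mul_monic_right ((hm he').2 ▸ hh)
    have a3 := eq_of_monic_of_associated m1 m2 (associated_of_dvd_dvd a1 a2)
    exact mul_left_cancel₀ m1.ne_zero ((hm he).2.symm.trans (a3 ▸ (hm he').2))
  · intro U hU
    simp only [Finset.mem_filter, Finset.mem_univ, true_and] at hU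
    have hU' : ∀ (p : F[X]) x, x ∈ U → AdjoinRoot.mk h p * x ∈ U := fun p x hx => by
      rw [← H65.aeval_cyc_apply]
      exact aeval_apply_smul_mem_of_le_comap hx p _ hU
    let I : Ideal F[X] :=
      { carrier := {a | AdjoinRoot.mk h a ∈ U}
        add_mem' := fun ha hb => by simpa using U.add_mem ha hb
        zero_mem' := by simp
        smul_mem' := fun c a ha => by simpa using hU' c _ ha }
    have hI : ∀ a, a ∈ I ↔ AdjoinRoot.mk h a ∈ U := fun _ => Iff.rfl
    have h2 : ∀ a, a ∈ I ↔ normalize (Submodule.IsPrincipal.generator I) ∣ a := fun a => by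
      rw [normalize_dvd_iff, ← Submodule.IsPrincipal.mem_iff_generator_dvd]
    obtain ⟨e, he⟩ := (h2 h).1 (by rw [hI, AdjoinRoot.mk_self]; exact U.zero_mem)
    have m1 : (normalize (Submodule.IsPrincipal.generator I)).Monic :=
      monic_normalize (fun h0 => hh.ne_zero (by rw [he, h0]; simp))
    have m2 : e.Monic := m1.of_mul_monic_left (he ▸ hh)
    have h3 : e ∈ (finite_div hh.ne_zero).toFinset := by
      rw [Set.Finite.mem_toFinset]; exact ⟨m2, Dvd.intro_left _ he.symm⟩
    refine ⟨e, h3, ?_⟩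
    ext x
    obtain ⟨a, rfl⟩ := AdjoinRoot.mk_surjective x
    rw [mem_range_mulD _ (hm h3).2, ← hI, h2,
      mul_right_cancel₀ m2.ne_zero ((hm h3).2.symm.trans he)]
  · intro e he
    haveI := finite_adj (hm he).1
    rw [kc, dif_pos (hm he).1, κ'_range π _ (hi _ (hm he).2)]
    rw [injective_iff_map_eq_zero]
    intro x hx
    obtain ⟨a, rfl⟩ := AdjoinRoot.mk_surjective x
    rw [mulD_mk _ (hm he).2, AdjoinRoot.mk_eq_zero] at hx
    rw [AdjoinRoot.mk_eq_zero]
    have m1 : (h /ₘ e).Monic := (hm he).1.of_mul_monic_right ((hm he).2 ▸ hh)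
    exact (mul_dvd_mul_iff_left m1.ne_zero).1 ((hm he).2 ▸ hx)

theorem kc_eq {Λ : F[X] → ℂ}
    (hΛ : ∀ (h : F[X]) (hh : h.Monic), ∑ e ∈ (finite_div hh.ne_zero).toFinset, Λ e = π h)
    {h : F[X]} (hh : h.Monic) : kc π h = Λ h := by
  induction hn : h.natDegree using Nat.strong_induction_on generalizing h with
  | _ n ih =>
  have h1 := (sum_kc (π := π) hh).trans (hΛ h hh).symm
  have h2 : h ∈ (finite_div hh.ne_zero).toFinset := by
    rw [Set.Finite.mem_toFinset]; exact ⟨hh, dvd_rfl⟩
  rw [← Finset.add_sum_erase _ _ h2, ← Finset.add_sum_erase _ _ h2] at h1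
  refine add_right_cancel (h1.trans ?_)
  congr 1
  refine Finset.sum_congr rfl fun e he => ?_
  have h3 := Finset.mem_of_mem_erase he
  rw [Set.Finite.mem_toFinset] at h3
  refine (ih _ (hn ▸ lt_of_le_of_ne (natDegree_le_of_dvd h3.2 hh.ne_zero) fun h4 => ?_) h3.1
    rfl).symm
  exact Finset.ne_of_mem_erase he (eq_of_monic_of_dvd_of_natDegree_le h3.1 hh h3.2 h4.ge).symm

/-! ### sums over all endomorphisms -/

variable {V : Type*} [AddCommGroup V] [Module F V] [Finite V]

omit [Fintype F] in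
theorem avg (hπ : ∀ a b : F[X], a.Monic → b.Monic → π (a * b) = π a + π b) {W : Submodule F V}
    (h0 : W ≠ ⊥) (h1 : W ≠ ⊤) (ψ : (V →ₗ[F] V) → ℂ) (hψ0 : ∀ g, ¬ W ≤ W.comap g → ψ g = 0)
    (hψ : ∀ g α, W ≤ W.comap g → ψ (g + emb W α) = ψ g) : ∑ g, ψ g * κ π g = 0 := by
  have h5 : ∑ α : (V ⧸ W) →ₗ[F] W, ∑ g, ψ (g + emb W α) * κ π (g + emb W α) = 0 := by
    rw [Finset.sum_comm]
    refine Finset.sum_eq_zero fun g _ => ?_
    by_cases hg : W ≤ W.comap g
    · simp only [hψ g _ hg, ← Finset.mul_sum, cusp hπ h0 h1 hg, mul_zero]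
    · refine Finset.sum_eq_zero fun α _ => ?_
      rw [hψ0, zero_mul]
      refine fun h => hg fun x hx => ?_
      have := W.sub_mem (h hx) (emb_mem W α x)
      rwa [LinearMap.add_apply, add_sub_cancel_right] at this
  have h6 : ∀ α : (V ⧸ W) →ₗ[F] W, ∑ g, ψ (g + emb W α) * κ π (g + emb W α) =
      ∑ g, ψ g * κ π g := fun α => Fintype.sum_equiv (Equiv.addRight _) _ _ fun _ => rfl
  simp only [h6, Finset.sum_const, nsmul_eq_mul] at h5
  exact (mul_eq_zero.1 h5).resolve_left (Nat.cast_ne_zero.2 Fintype.card_ne_zero)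

/-- The cyclic subspace generated by a vector. -/
def Z (g : V →ₗ[F] V) (v : V) : Submodule F V := sInf {U | v ∈ U ∧ U ≤ U.comap g}

omit [Fintype F] [Finite V] in
theorem mem_Z (g : V →ₗ[F] V) (v : V) : v ∈ Z g v := Submodule.mem_sInf.2 fun _ h => h.1

omit [Fintype F] [Finite V] in
theorem Z_inv (g : V →ₗ[F] V) (v : V) : Z g v ≤ (Z g v).comap g := fun _ hx =>
  Submodule.mem_sInf.2 fun U h => h.2 (Submodule.mem_sInf.1 hx U h)

omit [Fintype F] [Finite V] in
theorem Z_le {g : V →ₗ[F] V} {v : V} {U : Submodule F V} (h1 : v ∈ U) (h2 : U ≤ U.comap g) :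
    Z g v ≤ U := sInf_le ⟨h1, h2⟩

omit [Fintype F] [Finite V] in
theorem Z_congr {g g' : V →ₗ[F] V} {v : V} (h : ∀ x ∈ Z g v, g' x = g x) : Z g' v = Z g v := by
  have h1 : Z g' v ≤ Z g v := Z_le (mem_Z g v) fun x hx => by
    rw [Submodule.mem_comap, h x hx]; exact Z_inv g v hx
  refine le_antisymm h1 (Z_le (mem_Z g' v) fun x hx => ?_)
  rw [Submodule.mem_comap, ← h x (h1 hx)]; exact Z_inv g' v hx

theorem card_cyclic {h : F[X]} (hh : h.Monic) (hn : h.natDegree = finrank F V) (h0 : 0 < finrank F V)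
    [Fintype V] :
    (Finset.univ.filter fun p : V × (V →ₗ[F] V) =>
      (p.1 ≠ 0 ∧ Z p.2 p.1 = ⊤) ∧ p.2.charpoly = h).card = Nat.card (V ≃ₗ[F] V) ∧
    ∀ (v : V) (g : V →ₗ[F] V), Z g v = ⊤ → g.charpoly = h → κ π g = kc π h := by
  haveI := finite_adj hh
  have hd : finrank F (AdjoinRoot h) = finrank F V := by
    rw [← hn, (AdjoinRoot.powerBasis' hh).finrank, AdjoinRoot.powerBasis'_dim]
  have key : ∀ (v : V) (g : V →ₗ[F] V), Z g v = ⊤ → g.charpoly = h →
      ∃ e : AdjoinRoot h ≃ₗ[F] V, e 1 = v ∧ ∀ x, e (H65.cyc h x) = g (e x) := by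
    intro v g h1 h2
    let e0 : AdjoinRoot h →ₗ[F] V := LinearMap.applyₗ v ∘ₗ
      (aeval (R := F) (g : Module.End F V)).toLinearMap ∘ₗ AdjoinRoot.modByMonicHom hh
    have h3 : ∀ a, e0 (AdjoinRoot.mk h a) = aeval (g : Module.End F V) a v := fun a => by
      change aeval (g : Module.End F V) (a %ₘ h) v = _
      rw [← h2, ← LinearMap.aeval_eq_aeval_mod_charpoly]
    have h4 : e0 1 = v := by rw [← map_one (AdjoinRoot.mk h), h3]; simp
    have h5 : ∀ x, e0 (H65.cyc h x) = g (e0 x) := fun x => by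
      obtain ⟨a, rfl⟩ := AdjoinRoot.mk_surjective x
      rw [H65.cyc_apply, ← AdjoinRoot.mk_X, ← map_mul, h3, h3, map_mul, aeval_X]; rfl
    have h6 : Function.Surjective e0 := by
      rw [← LinearMap.range_eq_top, eq_top_iff, ← h1]
      refine Z_le ⟨1, h4⟩ ?_
      rintro _ ⟨x, rfl⟩
      exact ⟨_, h5 x⟩
    exact ⟨LinearEquiv.ofBijective e0
      ⟨(LinearMap.injective_iff_surjective_of_finrank_eq_finrank hd).2 h6, h6⟩, h4, h5⟩
  refine ⟨?_, fun v g h1 h2 => ?_⟩
  · let e0 := LinearEquiv.ofFinrankEq _ _ hd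
    rw [← Nat.card_congr (⟨fun e => e0.symm.trans e, fun e => e0.trans e, fun e => by ext; simp,
      fun e => by ext; simp⟩ : (AdjoinRoot h ≃ₗ[F] V) ≃ (V ≃ₗ[F] V)), ← Fintype.card_subtype,
      ← Nat.card_eq_fintype_card]
    symm
    have h1 : ∀ (e : AdjoinRoot h ≃ₗ[F] V) x, e (H65.cyc h x) = e.conj (H65.cyc h) (e x) :=
      fun e x => by simp [LinearEquiv.conj_apply]
    have h2 : ∀ (e : AdjoinRoot h ≃ₗ[F] V) (a : F[X]),
        e (AdjoinRoot.mk h a) = aeval (e.conj (H65.cyc h) : Module.End F V) a (e 1) := by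
      intro e a
      induction a using Polynomial.induction_on with
      | C a =>
        rw [aeval_C, AdjoinRoot.mk_C, ← AdjoinRoot.algebraMap_eq, Algebra.algebraMap_eq_smul_one,
          map_smul, Module.algebraMap_end_apply]
      | add p q hp hq => rw [map_add, map_add, map_add, hp, hq, LinearMap.add_apply]
      | monomial n a ih =>
        rw [pow_succ, ← mul_assoc, mul_comm _ X, map_mul (AdjoinRoot.mk h) X, map_mul (aeval _) X,
          AdjoinRoot.mk_X, ← H65.cyc_apply, h1, ih, aeval_X]; rfl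
    refine Nat.card_eq_of_bijective (fun e => ⟨(e 1, e.conj (H65.cyc h)), ⟨?_, ?_⟩, ?_⟩) ⟨?_, ?_⟩
    · have : Nontrivial (AdjoinRoot h) := finrank_pos_iff.1 (hd ▸ h0)
      simpa using (one_ne_zero (α := AdjoinRoot h))
    · rw [eq_top_iff]
      intro y _
      obtain ⟨x, rfl⟩ := e.surjective y
      obtain ⟨a, rfl⟩ := AdjoinRoot.mk_surjective x
      rw [h2]
      exact aeval_apply_smul_mem_of_le_comap (mem_Z _ _) a _ (Z_inv _ _)
    · exact (e.charpoly_conj _).trans (H65.charpoly_cyc hh)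
    · intro e e' he
      have a1 : e 1 = e' 1 := congrArg (·.1.1) he
      have a2 : e.conj (H65.cyc h) = e'.conj (H65.cyc h) := congrArg (·.1.2) he
      refine LinearEquiv.ext fun x => ?_
      obtain ⟨a, rfl⟩ := AdjoinRoot.mk_surjective x
      rw [h2, h2, a1, a2]
    · rintro ⟨⟨v, g⟩, ⟨-, a1⟩, a2⟩
      obtain ⟨e, b1, b2⟩ := key v g a1 a2
      refine ⟨e, Subtype.ext (Prod.ext b1 (LinearMap.ext fun y => ?_))⟩
      obtain ⟨x, rfl⟩ := e.surjective y
      exact (h1 e x).symm.trans (b2 x)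
  · obtain ⟨e, -, b2⟩ := key v g h1 h2
    rw [kc, dif_pos hh, κ_equiv π e b2]

theorem finite_mon (n : ℕ) : {h : F[X] | h.Monic ∧ h.natDegree = n}.Finite := by
  have : Finite (degreeLT F (n + 1)) := Finite.of_equiv _ (degreeLTEquiv F (n + 1)).toEquiv.symm
  refine (Set.toFinite (degreeLT F (n + 1) : Set F[X])).subset fun h hh => ?_
  rw [SetLike.mem_coe, mem_degreeLT, degree_eq_natDegree hh.1.ne_zero, hh.2]
  exact_mod_cast Nat.lt_succ_self n

theorem sum_all (hπ : ∀ a b : F[X], a.Monic → b.Monic → π (a * b) = π a + π b)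
    (h0 : 0 < finrank F V) (ρ : F[X] → ℂ) :
    ((Fintype.card F : ℂ) ^ finrank F V - 1) * ∑ g : V →ₗ[F] V, ρ g.charpoly * κ π g =
      Nat.card (V ≃ₗ[F] V) * ∑ h ∈ (finite_mon (F := F) (finrank F V)).toFinset, ρ h * kc π h := by
  have := Fintype.ofFinite V
  have e1 : ∀ v : V, v ≠ 0 → ∑ g : V →ₗ[F] V, ρ g.charpoly * κ π g =
      ∑ g : V →ₗ[F] V, if Z g v = ⊤ then ρ g.charpoly * κ π g else 0 := by
    intro v hv
    have e2 : ∀ W : Submodule F V, W ≠ ⊤ →
        ∑ g : V →ₗ[F] V, (if Z g v = W then ρ g.charpoly * κ π g else 0) = 0 := by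
      intro W hW
      by_cases hb : W = ⊥
      · refine Finset.sum_eq_zero fun g _ => if_neg fun e => hv ?_
        have := mem_Z g v
        rwa [e, hb] at this
      refine Eq.trans ?_ (avg hπ hb hW (fun g => if Z g v = W then ρ g.charpoly else 0)
        (fun g hg => if_neg fun e : Z g v = W => hg (e ▸ Z_inv g v)) (fun g α hg => ?_))
      · simp only [ite_mul, zero_mul]
      · simp only [charpoly_add_emb hg]
        refine if_congr ⟨fun e => ?_, fun e => ?_⟩ rfl rfl
        · refine Eq.trans ?_ e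
          exact Z_congr fun x hx => by
            rw [LinearMap.add_apply, emb_of_mem α (e ▸ hx), add_zero]
        · refine Eq.trans ?_ e
          exact Z_congr fun x hx => by
            rw [LinearMap.add_apply, emb_of_mem α (e ▸ hx), add_zero]
    calc _ = ∑ g : V →ₗ[F] V, ∑ W : Submodule F V,
          (if Z g v = W then ρ g.charpoly * κ π g else 0) := by simp
      _ = _ := by
        rw [Finset.sum_comm, Finset.sum_eq_single ⊤ (fun W _ hW => e2 W hW) (by simp)]
  have e3 : ((Fintype.card F : ℂ) ^ finrank F V - 1) * ∑ g : V →ₗ[F] V, ρ g.charpoly * κ π g =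
      ∑ p ∈ Finset.univ.filter (fun p : V × (V →ₗ[F] V) => p.1 ≠ 0 ∧ Z p.2 p.1 = ⊤),
        ρ p.2.charpoly * κ π p.2 := by
    symm
    rw [Finset.sum_filter, Fintype.sum_prod_type,
      ← Finset.add_sum_erase _ _ (Finset.mem_univ (0 : V)),
      Finset.sum_eq_zero (by simp), zero_add,
      Finset.sum_congr rfl (g := fun _ => ∑ g : V →ₗ[F] V, ρ g.charpoly * κ π g) fun v hv => by
        rw [e1 v (Finset.ne_of_mem_erase hv)]
        simp only [Ne, Finset.ne_of_mem_erase hv, not_false_eq_true, true_and],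
      Finset.sum_const, Finset.card_erase_of_mem (Finset.mem_univ _), Finset.card_univ,
      Module.card_eq_pow_finrank (K := F), nsmul_eq_mul,
      Nat.cast_sub (Nat.one_le_pow _ _ Fintype.card_pos)]
    push_cast; rfl
  rw [e3, ← Finset.sum_fiberwise_of_maps_to (g := fun p : V × (V →ₗ[F] V) => p.2.charpoly)
    (t := (finite_mon (F := F) (finrank F V)).toFinset) (fun p _ => by
      rw [Set.Finite.mem_toFinset]
      exact ⟨LinearMap.charpoly_monic _, LinearMap.charpoly_natDegree _⟩), Finset.mul_sum]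
  refine Finset.sum_congr rfl fun h hh => ?_
  rw [Set.Finite.mem_toFinset] at hh
  obtain ⟨a1, a2⟩ := card_cyclic (π := π) hh.1 hh.2 h0
  rw [Finset.filter_filter, ← a1, ← nsmul_eq_mul, ← Finset.sum_const]
  refine Finset.sum_congr rfl fun p hp => ?_
  simp only [Finset.mem_filter, Finset.mem_univ, true_and] at hp
  rw [a2 p.1 p.2 hp.1.2 hp.2, hp.2]

end H64.Cusp
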