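import Mathlib
import Cfsg.Agent.Lib.Cusp.Kap
import Cfsg.Agent.Lib.Char.InduceChar

/-!
Green's function attached to a Brauer lift is a generalized character.
-/

set_option autoImplicit false

namespace H64.Cusp

open Polynomial Module Cfsg
open scoped Classical

universe u v

theorem isGen_sum_fixed {G X : Type*} [Group G] [Finite G] [MulAction G X] [Fintype X]
    (f : X → G → ℂ) (hf : ∀ x g h, g • x = x → f (h • x) (h * g * h⁻¹) = f x g)
    (hs : ∀ x, IsGeneralizedCharacter (MulAction.stabilizer G x) fun s => f x s) :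
    IsGeneralizedCharacter G fun g => ∑ x, if g • x = x then f x g else 0 := by
  have := Fintype.ofFinite G
  have := Fintype.ofFinite (MulAction.orbitRel.Quotient G X)
  have key := H6.isGen_sum (Finset.univ : Finset (MulAction.orbitRel.Quotient G X))
    fun ω _ => H7.isGeneralizedCharacter_indFun _ (hs ω.out)
  convert key using 1
  funext g
  rw [Finset.sum_apply]
  simp only [fun ω : MulAction.orbitRel.Quotient G X => H7.indFun_eq_sum_quotient _
    (H6.gen_isClassFunction (hs ω.out))]
  rw [Finset.sum_sigma', Finset.univ_sigma_univ]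
  symm
  refine Fintype.sum_bijective (fun p => p.2.out • p.1.out) ⟨?_, ?_⟩ _ _ ?_
  · rintro ⟨ω, q⟩ ⟨ω', q'⟩ h
    have h1 : ω = ω' := by
      rw [← Quotient.out_eq ω, ← Quotient.out_eq ω']
      refine Quotient.sound ⟨q.out⁻¹ * q'.out, ?_⟩
      simp only at h ⊢
      rw [mul_smul, ← h, inv_smul_smul]
    subst h1
    congr 1
    rw [← QuotientGroup.out_eq' q, ← QuotientGroup.out_eq' q', QuotientGroup.eq,
      MulAction.mem_stabilizer_iff, mul_smul]
    simp only at h
    rw [← h, inv_smul_smul]
  · intro x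
    obtain ⟨y, hy⟩ : x ∈ MulAction.orbit G (Quotient.mk (MulAction.orbitRel G X) x).out :=
      MulAction.orbitRel_apply.1 (Quotient.exact (Quotient.out_eq _).symm)
    refine ⟨⟨Quotient.mk _ x, QuotientGroup.mk y⟩, ?_⟩
    obtain ⟨s, hs⟩ := QuotientGroup.mk_out_eq_mul
      (MulAction.stabilizer G (Quotient.mk (MulAction.orbitRel G X) x).out) y
    simp only at hy ⊢
    rw [hs, mul_smul, s.2, hy]
  · rintro ⟨ω, q⟩
    have h1 : q.out⁻¹ * g * q.out ∈ MulAction.stabilizer G ω.out ↔
        g • q.out • ω.out = q.out • ω.out := by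
      rw [MulAction.mem_stabilizer_iff, mul_smul, mul_smul, inv_smul_eq_iff]
    simp only
    split_ifs with h
    · rw [H7.extendByZero_of_mem _ _ (h1.2 h), ← hf _ _ q.out (h1.2 h)]
      simp [mul_assoc]
    · exact H7.extendByZero_of_not_mem _ _ (mt h1.1 h)

theorem isGen_κ {F K : Type*} [Field F] [Field K] [Algebra F K] [IsAlgClosed K] {N : ℕ}
    (t : Th K N) (n : ℕ) : ∀ (G : Type u) [Group G] [Finite G] (V : Type v) [AddCommGroup V]
      [Module F V] [Finite V] (ρ : Representation F G V), (∀ g : G, g ^ N = 1) →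
      finrank F V = n → IsGeneralizedCharacter G
        fun g => κ (fun h => rs t.θ (h.map (algebraMap F K))) (ρ g) := by
  induction n using Nat.strong_induction_on with
  | _ n ih =>
  intro G _ _ V _ _ _ ρ hN hn
  set π : F[X] → ℂ := fun h => rs t.θ (h.map (algebraMap F K))
  letI : MulAction G (Submodule F V) :=
    { smul := fun g U => U.map (ρ g)
      one_smul := fun U => by
        change U.map (ρ 1) = U
        rw [map_one]; exact Submodule.map_id U
      mul_smul := fun g h U => by
        change U.map (ρ (g * h)) = (U.map (ρ h)).map (ρ g)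
        rw [map_mul, ← Submodule.map_comp]; rfl }
  have hsm : ∀ (g : G) (U : Submodule F V), g • U = U.map (ρ g) := fun _ _ => rfl
  have hinj : ∀ g : G, Function.Injective (ρ g) := fun g =>
    Function.LeftInverse.injective (g := ρ g⁻¹) (ρ.inv_self_apply g)
  have hfix : ∀ (g : G) (U : Submodule F V), g • U = U ↔ U ≤ U.comap (ρ g) := fun g U => by
    rw [hsm, ← Submodule.map_le_iff_le_comap]
    refine ⟨le_of_eq, fun h => Submodule.eq_of_le_of_finrank_eq h ?_⟩
    exact (LinearEquiv.finrank_eq (Submodule.equivMapOfInjective _ (hinj g) U)).symm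
  have htop : ∀ g : G, g • (⊤ : Submodule F V) = ⊤ := fun g => (hfix g ⊤).2 fun _ _ => trivial
  have h1 := isGen_sum_fixed (G := G) (X := Submodule F V)
    (fun U g => if U = ⊤ then 0 else κ' π (ρ g) U) (fun U g h _ => ?_) (fun U => ?_)
  · convert H6.isGen_sub (lift' t ρ hN) h1 using 1
    funext g
    rw [Pi.sub_apply, eq_sub_iff_add_eq]
    refine Eq.trans ?_ (sum_κ π (ρ g))
    rw [← Finset.add_sum_erase _ _ (Finset.mem_univ ⊤), ← Finset.add_sum_erase _ _ (Finset.mem_univ ⊤),
      if_pos (htop g), if_pos rfl, zero_add, if_pos ((hfix g ⊤).1 (htop g)), κ]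
    congr 1
    refine Finset.sum_congr rfl fun U hU => ?_
    rw [if_neg (Finset.ne_of_mem_erase hU)]
    exact if_congr (hfix g U) rfl rfl
  · refine if_congr ⟨fun e => ?_, fun e => by rw [e, htop]⟩ rfl (κ'_map π (hinj h) (fun x => ?_) U)
    · rw [← inv_smul_smul h U, e, htop]
    · simp
  · by_cases hU : U = ⊤
    · simp only [if_pos hU]; exact H6.isGen_zero
    · simp only [if_neg hU]
      have h2 : ∀ s : MulAction.stabilizer G U, U ≤ U.comap (ρ s) := fun s => (hfix _ _).1 s.2
      have := ih _ (hn ▸ Submodule.finrank_lt hU) (MulAction.stabilizer G U) U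
        (Representation.subrepresentation (ρ.comp (MulAction.stabilizer G U).subtype) U h2)
        (fun s => Subtype.ext (hN s)) rfl
      convert this using 2 with s
      exact κ'_restrict π (h2 s)

end H64.Cusp
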