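import Mathlib
import Cfsg.Agent.Lib.Cusp.Cyc

/-!
The values of Green's function at cyclic endomorphisms and the resulting character sums.
-/

set_option autoImplicit false

namespace H64.Cusp

open Polynomial Module
open scoped Classical ComplexConjugate

theorem exists_th (K : Type*) [Field K] (N : ℕ) [NeZero N] : Nonempty (Th K N) := by
  have : NeZero (Nat.card (rootsOfUnity N K)) := ⟨Nat.card_pos.ne'⟩
  let e : rootsOfUnity N K ≃* rootsOfUnity (Nat.card (rootsOfUnity N K)) ℂ :=
    mulEquivOfCyclicCardEq (Complex.card_rootsOfUnity _).symm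
  refine ⟨⟨fun x => if h : x ^ N = 1 then ((e (rootsOfUnity.mkOfPowEq x h) : ℂˣ) : ℂ) else 0,
    fun a b ha hb => ?_, ?_, fun a ha h => ?_⟩⟩
  · have hab : (a * b) ^ N = 1 := by rw [mul_pow, ha, hb, one_mul]
    simp only [dif_pos ha, dif_pos hb, dif_pos hab]
    rw [← Units.val_mul, ← Subgroup.coe_mul, ← map_mul]
    congr 3
    exact Subtype.ext (Units.ext rfl)
  · simp only [dif_pos (one_pow N)]
    rw [show rootsOfUnity.mkOfPowEq (1 : K) (one_pow N) = 1 from
      Subtype.ext (Units.ext rfl), map_one]; rfl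
  · simp only [dif_pos ha] at h
    have h1 : e (rootsOfUnity.mkOfPowEq a ha) = 1 := Subtype.ext (Units.ext h)
    rw [map_eq_one_iff e e.injective] at h1
    exact congrArg (fun x : rootsOfUnity N K => ((x : Kˣ) : K)) h1

section th

variable {K : Type*} [Field K] {N : ℕ} (t : Th K N)

theorem Th.map_pow {a : K} (ha : a ^ N = 1) (k : ℕ) : t.θ (a ^ k) = t.θ a ^ k := by
  induction k with
  | zero => rw [pow_zero, pow_zero, t.one]
  | succ k ih => rw [pow_succ, t.mul _ _ (by rw [pow_right_comm, ha, one_pow]) ha, ih, pow_succ]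

/-- Powers of an injective character. -/
noncomputable def Th.pow (a : ℕ) (ha : a.Coprime N) : Th K N where
  θ x := t.θ x ^ a
  mul x y hx hy := by rw [t.mul x y hx hy, mul_pow]
  one := by rw [t.one, one_pow]
  inj x hx h := by
    rw [← t.map_pow hx] at h
    have := t.inj _ (by rw [pow_right_comm, hx, one_pow]) h
    exact (pow_eq_one_iff_of_coprime ha).1 ⟨this, hx⟩

theorem Th.prim {ζ : K} {M : ℕ} (hζ : IsPrimitiveRoot ζ M) (hM : M ∣ N) :
    IsPrimitiveRoot (t.θ ζ) M := by
  have h1 : ζ ^ N = 1 := (hζ.pow_eq_one_iff_dvd N).2 hM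
  refine ⟨by rw [← t.map_pow h1, hζ.pow_eq_one, t.one], fun l hl => hζ.dvd_of_pow_eq_one l ?_⟩
  exact t.inj _ (by rw [pow_right_comm, h1, one_pow]) (by rw [t.map_pow h1, hl])

end th

theorem sum_orth {ω : ℂ} {M : ℕ} (hM : M ≠ 0) (hω : IsPrimitiveRoot ω M) (a b : ℕ) :
    ∑ k ∈ Finset.range M, conj ((ω ^ k) ^ a) * (ω ^ k) ^ b = if a ≡ b [MOD M] then (M : ℂ) else 0 := by
  have h0 : ω ≠ 0 := hω.ne_zero hM
  have h1 : conj ω = ω⁻¹ := (Complex.inv_eq_conj (hω.norm'_eq_one hM)).symm
  have h2 : ∀ k, conj ((ω ^ k) ^ a) * (ω ^ k) ^ b = ((ω ^ a)⁻¹ * ω ^ b) ^ k := fun k => by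
    rw [map_pow, map_pow, h1, mul_pow, pow_right_comm ω, pow_right_comm ω⁻¹, inv_pow ω a]
  have h3 : (ω ^ a)⁻¹ * ω ^ b = 1 ↔ a ≡ b [MOD M] := by
    rw [inv_mul_eq_one₀ (pow_ne_zero _ h0), (hω.isOfFinOrder hM).pow_eq_pow_iff_modEq,
      ← hω.eq_orderOf]
  simp only [h2]
  split_ifs with h
  · simp [h3.2 h]
  · have h4 := mul_geom_sum ((ω ^ a)⁻¹ * ω ^ b) M
    rw [mul_pow, inv_pow, pow_right_comm, pow_right_comm ω b, hω.pow_eq_one, one_pow, one_pow,
      inv_one, one_mul, sub_self] at h4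
    exact (mul_eq_zero.1 h4).resolve_left (sub_ne_zero.2 (mt h3.1 h))

variable {F K : Type*} [Field F] [Fintype F] [Field K] [Algebra F K] [Algebra.IsAlgebraic F K]

theorem pow_eq_self_iff (α : K) (k : ℕ) :
    α ^ Fintype.card F ^ k = α ↔ (minpoly F α).natDegree ∣ k := by
  have hi := Algebra.IsIntegral.isIntegral (R := F) α
  rw [(minpoly.irreducible hi).natDegree_dvd_iff_dvd_X_pow_card_pow_sub_X, minpoly.dvd_iff,
    Nat.card_eq_fintype_card]
  simp [sub_eq_zero]

omit [Algebra.IsAlgebraic F K] in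
theorem frob_pow (α : K) (i : ℕ) :
    (FiniteField.frobeniusAlgHom F K ^ i) α = α ^ Fintype.card F ^ i := by
  rw [AlgHom.coe_pow, FiniteField.coe_frobeniusAlgHom, pow_iterate]

theorem roots_minpoly (α : K) : ((minpoly F α).map (algebraMap F K)).roots =
    (Finset.range (minpoly F α).natDegree).val.map fun i => α ^ Fintype.card F ^ i := by
  have hi := Algebra.IsIntegral.isIntegral (R := F) α
  symm
  refine Multiset.eq_of_le_of_card_le ((Multiset.le_iff_subset ?_).2 ?_) ?_
  · refine Multiset.Nodup.map_on ?_ (Finset.range _).nodup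
    have key : ∀ i j, i ≤ j → j < (minpoly F α).natDegree →
        α ^ Fintype.card F ^ i = α ^ Fintype.card F ^ j → i = j := by
      intro i j hij hj h
      obtain ⟨k, rfl⟩ := Nat.exists_eq_add_of_le hij
      rw [pow_add, mul_comm, pow_mul, ← frob_pow, ← frob_pow _ i] at h
      have := (pow_eq_self_iff α k).1 ((FiniteField.frobeniusAlgHom F K ^ i).injective h).symm
      rw [Nat.eq_zero_of_dvd_of_lt this (by omega), add_zero]
    intro i hi j hj h
    rw [Finset.mem_val, Finset.mem_range] at hi hj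
    rcases le_total i j with h1 | h1
    · exact key i j h1 hj h
    · exact (key j i h1 hi h.symm).symm
  · intro x hx
    obtain ⟨i, -, rfl⟩ := Multiset.mem_map.1 hx
    rw [mem_roots (map_ne_zero (minpoly.ne_zero hi)), IsRoot, eval_map_algebraMap, ← frob_pow,
      aeval_algHom_apply, minpoly.aeval, map_zero]
  · rw [Multiset.card_map, Finset.card_val, Finset.card_range]
    exact (card_roots' _).trans natDegree_map_le

variable (F) in
/-- The characteristic polynomial of an element of the extension of degree `n`. -/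
noncomputable def hp (n : ℕ) (α : K) : F[X] := minpoly F α ^ (n / (minpoly F α).natDegree)

theorem rs_hp (θ : K → ℂ) {n : ℕ} {α : K} (h : α ^ Fintype.card F ^ n = α) :
    rs θ ((hp F n α).map (algebraMap F K)) = ∑ i ∈ Finset.range n, θ (α ^ Fintype.card F ^ i) := by
  have hi := Algebra.IsIntegral.isIntegral (R := F) α
  obtain ⟨j, rfl⟩ := (pow_eq_self_iff α n).1 h
  rw [hp, Nat.mul_div_cancel_left _ (minpoly.natDegree_pos hi), Polynomial.map_pow, rs, roots_pow,
    roots_minpoly, Multiset.map_nsmul, Multiset.sum_nsmul, Multiset.map_map]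
  clear h
  induction j with
  | zero => simp
  | succ j ih =>
    rw [succ_nsmul, ih, Nat.mul_succ, Finset.sum_range_add]
    congr 1
    refine Finset.sum_congr rfl fun i _ => ?_
    rw [pow_add, pow_mul α, (pow_eq_self_iff α _).2 (dvd_mul_right _ _)]
    rfl

variable (F) in
/-- The value of Green's function at a cyclic endomorphism. -/
noncomputable def lam (θ : K → ℂ) (e : F[X]) : ℂ :=
  ∑ α ∈ (e.map (algebraMap F K)).roots.toFinset, if ∃ j, e = minpoly F α ^ j then θ α else 0

theorem sum_lam (θ : K → ℂ) (h : F[X]) (hh : h.Monic) :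
    ∑ e ∈ (finite_div hh.ne_zero).toFinset, lam F θ e = rs θ (h.map (algebraMap F K)) := by
  have h1 : ∀ e ∈ (finite_div hh.ne_zero).toFinset, lam F θ e =
      ∑ α ∈ (h.map (algebraMap F K)).roots.toFinset,
        if ∃ j, e = minpoly F α ^ (j + 1) then θ α else 0 := by
    intro e he
    rw [Set.Finite.mem_toFinset] at he
    rw [lam, ← Finset.sum_filter, ← Finset.sum_filter]
    refine Finset.sum_congr ?_ fun _ _ => rfl
    ext α
    simp only [Finset.mem_filter, Multiset.mem_toFinset, mem_roots (map_ne_zero hh.ne_zero),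
      mem_roots (map_ne_zero he.1.ne_zero), IsRoot, eval_map_algebraMap]
    constructor
    · rintro ⟨a1, j, rfl⟩
      refine ⟨aeval_eq_zero_of_dvd_aeval_eq_zero he.2 a1, ?_⟩
      cases j with
      | zero => simp at a1
      | succ j => exact ⟨j, rfl⟩
    · rintro ⟨-, j, rfl⟩
      exact ⟨by simp, _, rfl⟩
  rw [Finset.sum_congr rfl h1, Finset.sum_comm, rs, Finset.sum_multiset_map_count]
  refine Finset.sum_congr rfl fun α _ => ?_
  have hi := Algebra.IsIntegral.isIntegral (R := F) α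
  have hirr := minpoly.irreducible hi
  obtain ⟨k, r, a1, a2⟩ := WfDvdMonoid.max_power_factor' hh.ne_zero hirr.not_isUnit
  have hr : r ≠ 0 := fun h0 => a1 (h0 ▸ dvd_zero _)
  rw [← Finset.sum_filter, Finset.sum_const]
  congr 1
  have a3 : ((minpoly F α).map (algebraMap F K)).roots.count α = 1 := by
    refine le_antisymm (count_roots_le_one (PerfectField.separable_of_irreducible hirr).map α) ?_
    rw [Multiset.one_le_count_iff_mem, mem_roots (map_ne_zero hirr.ne_zero), IsRoot,
      eval_map_algebraMap, minpoly.aeval]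
  have a4 : (r.map (algebraMap F K)).roots.count α = 0 := by
    rw [Multiset.count_eq_zero, mem_roots (map_ne_zero hr), IsRoot, eval_map_algebraMap]
    exact fun h0 => a1 (minpoly.dvd F α h0)
  have a5 : (h.map (algebraMap F K)).roots.count α = k := by
    rw [a2, Polynomial.map_mul, Polynomial.map_pow,
      roots_mul (mul_ne_zero (pow_ne_zero _ (map_ne_zero hirr.ne_zero)) (map_ne_zero hr)),
      roots_pow, Multiset.count_add, Multiset.count_nsmul, a3, a4, mul_one, add_zero]
  rw [a5, ← Finset.card_range k]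
  symm
  refine Finset.card_bij (fun j _ => minpoly F α ^ (j + 1)) (fun j hj => ?_) (fun i _ j _ e => ?_)
    (fun e he => ?_)
  · rw [Finset.mem_filter, Set.Finite.mem_toFinset]
    refine ⟨⟨(minpoly.monic hi).pow _, ?_⟩, j, rfl⟩
    rw [a2]
    exact (pow_dvd_pow _ (Finset.mem_range.1 hj)).mul_right _
  · have := congrArg natDegree e
    simp only [natDegree_pow] at this
    have := Nat.eq_of_mul_eq_mul_right (minpoly.natDegree_pos hi) this
    omega
  · rw [Finset.mem_filter, Set.Finite.mem_toFinset] at he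
    obtain ⟨⟨-, b1⟩, j, rfl⟩ := he
    refine ⟨j, Finset.mem_range.2 (lt_of_not_ge fun b2 => a1 ?_), rfl⟩
    rw [a2] at b1
    have := (pow_dvd_pow (minpoly F α) (Nat.succ_le_succ b2)).trans b1
    rwa [pow_succ, mul_dvd_mul_iff_left (pow_ne_zero _ hirr.ne_zero)] at this

theorem sum_mon_lam (θ : K → ℂ) (ρ : F[X] → ℂ) {n : ℕ} (hn : n ≠ 0) {ζ : K}
    (hζ : IsPrimitiveRoot ζ (Fintype.card F ^ n - 1)) :
    ∑ h ∈ (finite_mon (F := F) n).toFinset, (if h.coeff 0 ≠ 0 then ρ h else 0) * lam F θ h =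
      ∑ k ∈ Finset.range (Fintype.card F ^ n - 1), ρ (hp F n (ζ ^ k)) * θ (ζ ^ k) := by
  have hq : 1 < Fintype.card F ^ n := Nat.one_lt_pow hn Fintype.one_lt_card
  have : NeZero (Fintype.card F ^ n - 1) := ⟨by omega⟩
  have h0 : ∀ k, ζ ^ k ≠ 0 := fun k => pow_ne_zero _ (hζ.ne_zero (NeZero.ne _))
  have h1 : ∀ α : K, α ≠ 0 → (α ^ (Fintype.card F ^ n - 1) = 1 ↔ (minpoly F α).natDegree ∣ n) := by
    intro α hα
    rw [← pow_eq_self_iff, ← mul_left_inj' hα, ← pow_succ, Nat.sub_add_cancel hq.le, one_mul]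
  have h2 : ∀ k, (minpoly F (ζ ^ k)).natDegree ∣ n := fun k =>
    (h1 _ (h0 k)).1 (by rw [pow_right_comm, hζ.pow_eq_one, one_pow])
  have hi := fun α : K => Algebra.IsIntegral.isIntegral (R := F) α
  have h3 : ∀ k, hp F n (ζ ^ k) ∈ (finite_mon (F := F) n).toFinset := fun k => by
    rw [Set.Finite.mem_toFinset]
    exact ⟨(minpoly.monic (hi _)).pow _, by rw [hp, natDegree_pow, Nat.div_mul_cancel (h2 k)]⟩
  have h4 : ∀ k, (hp F n (ζ ^ k)).coeff 0 ≠ 0 := fun k => by
    rw [hp, coeff_zero_eq_eval_zero, eval_pow, ← coeff_zero_eq_eval_zero]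
    exact pow_ne_zero _ (minpoly.coeff_zero_ne_zero (hi _) (h0 k))
  calc _ = ∑ h ∈ (finite_mon (F := F) n).toFinset, ∑ k ∈ Finset.range (Fintype.card F ^ n - 1),
        if h = hp F n (ζ ^ k) then ρ h * θ (ζ ^ k) else 0 := ?_
    _ = _ := by
      rw [Finset.sum_comm]
      refine Finset.sum_congr rfl fun k _ => ?_
      rw [Finset.sum_ite_eq', if_pos (h3 k)]
  refine Finset.sum_congr rfl fun h hh => ?_
  rw [Set.Finite.mem_toFinset] at hh
  split_ifs with hc
  swap
  · rw [zero_mul, Finset.sum_eq_zero]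
    exact fun k _ => if_neg fun e : h = hp F n (ζ ^ k) => hc (e ▸ h4 k)
  rw [lam, ← Finset.sum_filter, ← Finset.sum_filter, ← Finset.mul_sum]
  congr 1
  symm
  refine Finset.sum_bij (fun k _ => ζ ^ k) (fun k hk => ?_) (fun i hi j hj e => ?_)
    (fun α hα => ?_) (fun _ _ => rfl)
  · rw [Finset.mem_filter] at hk ⊢
    refine ⟨?_, _, hk.2⟩
    rw [Multiset.mem_toFinset, mem_roots (map_ne_zero hh.1.ne_zero), IsRoot, eval_map_algebraMap,
      hk.2, hp, map_pow, minpoly.aeval, zero_pow]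
    exact (Nat.div_pos (Nat.le_of_dvd (Nat.pos_of_ne_zero hn) (h2 k))
      (minpoly.natDegree_pos (hi _))).ne'
  · exact hζ.pow_inj (Finset.mem_range.1 (Finset.mem_filter.1 hi).1)
      (Finset.mem_range.1 (Finset.mem_filter.1 hj).1) e
  · rw [Finset.mem_filter, Multiset.mem_toFinset, mem_roots (map_ne_zero hh.1.ne_zero), IsRoot,
      eval_map_algebraMap] at hα
    obtain ⟨a1, j, rfl⟩ := hα
    have a2 : α ≠ 0 := by
      rintro rfl
      rw [← coeff_zero_eq_aeval_zero', map_eq_zero] at a1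
      exact hc a1
    have a3 := hh.2
    rw [natDegree_pow] at a3
    obtain ⟨k, hk, rfl⟩ := hζ.eq_pow_of_pow_eq_one ((h1 α a2).2 (Dvd.intro_left _ a3))
    refine ⟨k, Finset.mem_filter.2 ⟨Finset.mem_range.2 hk, ?_⟩, rfl⟩
    rw [hp, ← a3, Nat.mul_div_cancel _ (minpoly.natDegree_pos (hi _))]

end H64.Cusp
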