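import Mathlib
import Cfsg.Agent.Lib.Cusp.Theta
import Cfsg.Agent.Lib.Cusp.Gen
import Cfsg.Agent.Lib.Char.Ortho

/-!
The cuspidal characters of the finite general linear groups.
-/

set_option autoImplicit false

namespace H64.Cusp

open Polynomial Module Cfsg
open scoped Classical ComplexConjugate MatrixGroups

variable {F : Type*} [Field F] [Fintype F]

omit [Fintype F] in
theorem sum_inner {V : Type*} [AddCommGroup V] [Module F V] [Finite V] {π π' : F[X] → ℂ}
    (hπ : ∀ a b : F[X], a.Monic → b.Monic → π (a * b) = π a + π b)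
    (hπ' : ∀ a b : F[X], a.Monic → b.Monic → π' (a * b) = π' a + π' b) :
    ∑ g : V →ₗ[F] V, (if g.charpoly.coeff 0 ≠ 0 then conj (κ π g) else 0) * κ π' g =
      ∑ g : V →ₗ[F] V, (if g.charpoly.coeff 0 ≠ 0 then conj (π g.charpoly) else 0) * κ π' g := by
  symm
  calc _ = ∑ g : V →ₗ[F] V, ∑ W : Submodule F V, (if g.charpoly.coeff 0 ≠ 0 then
        conj (if W ≤ W.comap g then κ' π g W else 0) else 0) * κ π' g := by
        refine Finset.sum_congr rfl fun g _ => ?_
        rw [← Finset.sum_mul, ← sum_κ π g, map_sum]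
        split_ifs <;> simp
    _ = _ := by
      rw [Finset.sum_comm, Finset.sum_eq_single ⊤ (fun W _ hW => ?_) (by simp)]
      · refine Finset.sum_congr rfl fun g _ => ?_
        rw [if_pos (show ⊤ ≤ Submodule.comap g ⊤ from fun _ _ => trivial)]
        rfl
      · by_cases hb : W = ⊥
        · subst hb
          simp [κ'_bot hπ]
        · refine avg hπ' hb hW _ (fun g hg => by simp [hg]) fun g α hg => ?_
          rw [charpoly_add_emb hg, κ'_congr π (g := g + emb W α) (g' := g) fun x hx => by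
            rw [LinearMap.add_apply, emb_of_mem α hx, add_zero]]

theorem sum_GL {n : ℕ} (Φ : ((Fin n → F) →ₗ[F] (Fin n → F)) → ℂ) :
    ∑ g : GL (Fin n) F, Φ (Matrix.toLin' (g : Matrix (Fin n) (Fin n) F)) =
      ∑ f : (Fin n → F) →ₗ[F] (Fin n → F), if f.charpoly.coeff 0 ≠ 0 then Φ f else 0 := by
  have h1 : ∀ A : Matrix (Fin n) (Fin n) F, (Matrix.toLin' A).charpoly.coeff 0 ≠ 0 ↔ IsUnit A := by
    intro A
    rw [Matrix.charpoly_toLin', Matrix.isUnit_iff_isUnit_det, Matrix.det_eq_sign_charpoly_coeff]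
    simp
  rw [← Finset.sum_filter]
  refine Finset.sum_bij (fun g _ => Matrix.toLin' (g : Matrix (Fin n) (Fin n) F)) (fun g _ => ?_)
    (fun g _ g' _ h => Units.ext (Matrix.toLin'.injective h)) (fun f hf => ?_) fun _ _ => rfl
  · exact Finset.mem_filter.2 ⟨Finset.mem_univ _, (h1 _).2 g.isUnit⟩
  · obtain ⟨A, rfl⟩ := Matrix.toLin'.surjective f
    obtain ⟨g, rfl⟩ := (h1 A).1 (Finset.mem_filter.1 hf).2
    exact ⟨g, Finset.mem_univ _, rfl⟩

theorem sum_cusp {π : F[X] → ℂ}
    (hπ : ∀ a b : F[X], a.Monic → b.Monic → π (a * b) = π a + π b) {n m : ℕ} (h0 : 0 < m)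
    (h1 : m < n) : (∑ g : GL (Fin n) F, if (∀ i j : Fin n, ¬ (i.val < m ∧ m ≤ j.val) →
      (g : Matrix (Fin n) (Fin n) F) i j = (1 : Matrix (Fin n) (Fin n) F) i j)
      then κ π (Matrix.toLin' (g : Matrix (Fin n) (Fin n) F)) else 0) = 0 := by
  let W : Submodule F (Fin n → F) :=
    { carrier := {x | ∀ j : Fin n, m ≤ j.val → x j = 0}
      add_mem' := fun ha hb j hj => by simp [ha j hj, hb j hj]
      zero_mem' := fun _ _ => rfl
      smul_mem' := fun c x hx j hj => by simp [hx j hj] }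
  have hW : ∀ x, x ∈ W ↔ ∀ j : Fin n, m ≤ j.val → x j = 0 := fun _ => Iff.rfl
  have a0 : ∀ j : Fin n, j.val < m → Pi.single j (1 : F) ∈ W := fun j hj i hi =>
    Pi.single_eq_of_ne (fun e => by subst e; omega) _
  have a1 : W ≠ ⊥ := fun e => by
    have := a0 ⟨0, by omega⟩ h0
    rw [e, Submodule.mem_bot] at this
    simpa using congrFun this ⟨0, by omega⟩
  have a2 : W ≠ ⊤ := fun e => by
    have : (fun _ => (1 : F)) ∈ W := e ▸ Submodule.mem_top
    exact one_ne_zero (this ⟨m, h1⟩ le_rfl)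
  have a3 := sum_GL (F := F) (n := n) fun f => if (∀ i j : Fin n, ¬ (i.val < m ∧ m ≤ j.val) →
      LinearMap.toMatrix' f i j = (1 : Matrix (Fin n) (Fin n) F) i j) then κ π f else 0
  simp only [LinearMap.toMatrix'_toLin'] at a3
  refine a3.trans (Eq.trans ?_ (cusp hπ a1 a2 (g := LinearMap.id) le_rfl))
  simp only [← ite_and]
  rw [← Finset.sum_filter]
  symm
  refine Finset.sum_bij (fun α _ => LinearMap.id + emb W α) (fun α _ => ?_) (fun α _ β _ h => ?_)
    (fun f hf => ?_) fun _ _ => rfl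
  · refine Finset.mem_filter.2 ⟨Finset.mem_univ _, ?_, fun i j hij => ?_⟩
    · rw [charpoly_add_emb (g := LinearMap.id) le_rfl, coeff_zero_eq_eval_zero]
      change eval 0 (LinearMap.charpoly (1 : Module.End F (Fin n → F))) ≠ 0
      simp [LinearMap.charpoly_one]
    · rw [map_add, LinearMap.toMatrix'_id, Matrix.add_apply, add_eq_left, LinearMap.toMatrix'_apply]
      by_cases hi : i.val < m
      · rw [emb_of_mem α (a0 j (by omega)), Pi.zero_apply]
      · exact emb_mem W α _ i (by omega)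
  · refine LinearMap.ext fun x => Subtype.ext ?_
    obtain ⟨x, rfl⟩ := W.mkQ_surjective x
    exact LinearMap.congr_fun (add_left_cancel h) x
  · have b1 := (Finset.mem_filter.1 hf).2.2
    have b2 : ∀ x i, (f - LinearMap.id : (Fin n → F) →ₗ[F] (Fin n → F)) x i =
        ∑ j, (LinearMap.toMatrix' f i j - (1 : Matrix (Fin n) (Fin n) F) i j) * x j := fun x i => by
      rw [← Matrix.toLin'_toMatrix' (f - LinearMap.id), map_sub, LinearMap.toMatrix'_id]
      rfl
    have b3 : ∀ x, (f - LinearMap.id : (Fin n → F) →ₗ[F] (Fin n → F)) x ∈ W := fun x i hi => by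
      rw [b2]
      exact Finset.sum_eq_zero fun j _ => by rw [b1 i j (by omega), sub_self, zero_mul]
    refine ⟨W.liftQ ((f - LinearMap.id).codRestrict W b3) fun x hx => ?_,
      Finset.mem_univ _, LinearMap.ext fun x => ?_⟩
    · refine Subtype.ext (_root_.funext fun i => ?_)
      change (f - LinearMap.id : (Fin n → F) →ₗ[F] (Fin n → F)) x i = 0
      rw [b2]
      refine Finset.sum_eq_zero fun j _ => ?_
      by_cases hj : m ≤ j.val
      · rw [hx j hj, mul_zero]
      · rw [b1 i j (by omega), sub_self, zero_mul]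
    · change x + (f x - x) = f x
      rw [add_sub_cancel]

variable {K : Type*} [Field K] [Algebra F K] {N : ℕ}

variable (F) in
/-- The additive function of monic polynomials attached to a character of the roots of unity. -/
noncomputable def piT (t : Th K N) (h : F[X]) : ℂ := rs t.θ (h.map (algebraMap F K))

omit [Fintype F] in
theorem piT_mul (t : Th K N) (a b : F[X]) (ha : a.Monic) (hb : b.Monic) :
    piT F t (a * b) = piT F t a + piT F t b := by
  rw [piT, Polynomial.map_mul, rs_mul _ (map_ne_zero ha.ne_zero) (map_ne_zero hb.ne_zero), piT, piT]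

variable (F) in
/-- The cuspidal character attached to a character of the roots of unity. -/
noncomputable def cχ (n : ℕ) (t : Th K N) (g : GL (Fin n) F) : ℂ :=
  (-1) ^ (n - 1) * κ (piT F t) (Matrix.toLin' (g : Matrix (Fin n) (Fin n) F))

theorem cχ_one {n : ℕ} (hn : n ≠ 0) (t : Th K N) :
    cχ F n t 1 = ∏ i ∈ Finset.Ico 1 n, ((Fintype.card F : ℂ) ^ i - 1) := by
  rw [cχ, Units.val_one, Matrix.toLin'_one, κ_id (piT_mul t) n _ (by simp), fq, if_neg hn]
  have : piT F t (X - 1) = 1 := by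
    rw [piT, Polynomial.map_sub, map_X, Polynomial.map_one, ← C_1, rs, roots_X_sub_C]
    simpa using t.one
  rw [this, one_mul, ← Nat.card_Ico 1 n, ← Finset.prod_neg]
  simp

theorem isGen_cχ [IsAlgClosed K] {n : ℕ} (t : Th K N) (hN : ∀ g : GL (Fin n) F, g ^ N = 1) :
    IsGeneralizedCharacter (GL (Fin n) F) (cχ F n t) := by
  have := H6.isGen_intCast_smul ((-1) ^ (n - 1))
    (isGen_κ t _ (GL (Fin n) F) (Fin n → F) (H7.repOfMatrix (Units.coeHom _)) hN rfl)
  convert this using 1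
  funext g
  rw [cχ, Pi.smul_apply, smul_eq_mul]
  push_cast
  rfl

theorem inner_cχ [Algebra.IsAlgebraic F K] {n : ℕ} (hn : n ≠ 0) (t : Th K N)
    {ζ : K} (hζ : IsPrimitiveRoot ζ (Fintype.card F ^ n - 1)) (hM : Fintype.card F ^ n - 1 ∣ N)
    {a b : ℕ} (ha : a.Coprime N) (hb : b.Coprime N) :
    classInner (cχ F n (t.pow b hb)) (cχ F n (t.pow a ha)) = ((Finset.range n).filter fun i =>
      Fintype.card F ^ i * a ≡ b [MOD Fintype.card F ^ n - 1]).card := by
  have hq : 1 < Fintype.card F ^ n := Nat.one_lt_pow hn Fintype.one_lt_card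
  have hM0 : Fintype.card F ^ n - 1 ≠ 0 := by omega
  have hMc : ((Fintype.card F ^ n - 1 : ℕ) : ℂ) = (Fintype.card F : ℂ) ^ n - 1 := by
    rw [Nat.cast_sub hq.le]; simp
  have h1 : ∀ g, cχ F n (t.pow b hb) g * conj (cχ F n (t.pow a ha) g) =
      conj (κ (piT F (t.pow a ha)) (Matrix.toLin' (g : Matrix (Fin n) (Fin n) F))) *
        κ (piT F (t.pow b hb)) (Matrix.toLin' (g : Matrix (Fin n) (Fin n) F)) := fun g => by
    rw [cχ, cχ, map_mul, map_pow, map_neg, map_one, mul_mul_mul_comm, ← mul_pow]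
    simp [mul_comm]
  have h2 := sum_all (V := Fin n → F) (piT_mul (t.pow b hb)) (by simpa using Nat.pos_of_ne_zero hn)
    fun h => if h.coeff 0 ≠ 0 then conj (piT F (t.pow a ha) h) else 0
  rw [← sum_inner (piT_mul _) (piT_mul _), Finset.sum_congr rfl (g := fun h =>
    (if h.coeff 0 ≠ 0 then conj (piT F (t.pow a ha) h) else 0) * lam F (t.pow b hb).θ h)
    (fun h hh => by rw [kc_eq (π := piT F (t.pow b hb)) (sum_lam _) ((Set.Finite.mem_toFinset _).1 hh).1]),
    Module.finrank_fin_fun, sum_mon_lam _ _ hn hζ, ← Nat.card_congr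
      ((Matrix.GeneralLinearGroup.toLin (n := Fin n) (R := F)).trans
        (LinearMap.GeneralLinearGroup.generalLinearEquiv F (Fin n → F))).toEquiv] at h2
  have hζN : ζ ^ N = 1 := (hζ.pow_eq_one_iff_dvd N).2 hM
  have h3 : ∀ k, conj (piT F (t.pow a ha) (hp F n (ζ ^ k))) * (t.pow b hb).θ (ζ ^ k) =
      ∑ i ∈ Finset.range n, conj ((t.θ ζ ^ k) ^ (Fintype.card F ^ i * a)) * (t.θ ζ ^ k) ^ b := by
    intro k
    rw [piT, rs_hp, map_sum, Finset.sum_mul]
    · refine Finset.sum_congr rfl fun i _ => ?_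
      simp only [Th.pow]
      rw [← pow_mul ζ, t.map_pow hζN, t.map_pow hζN, pow_mul, pow_mul]
    · rw [← Nat.sub_add_cancel hq.le, pow_succ, pow_right_comm, hζ.pow_eq_one, one_pow, one_mul]
  simp only [h3] at h2
  rw [Finset.sum_comm] at h2
  simp only [sum_orth hM0 (t.prim hζ hM)] at h2
  rw [← Finset.sum_filter, Finset.sum_const, nsmul_eq_mul, ← hMc, ← mul_assoc, mul_comm] at h2
  have h4 := mul_right_cancel₀ (Nat.cast_ne_zero.2 hM0) h2
  simp only [classInner, h1]
  rw [sum_GL fun f => conj (κ (piT F (t.pow a ha)) f) * κ (piT F (t.pow b hb)) f,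
    inv_mul_eq_iff_eq_mul₀ (Nat.cast_ne_zero.2 Nat.card_pos.ne'), ← h4]
  simp only [ite_mul, zero_mul]

theorem count_cusp (n : ℕ) (hn : 2 ≤ n) :
    Nat.totient (Fintype.card F ^ n - 1) / n ≤
      Nat.card {χ : IrrCharacter (GL (Fin n) F) //
        (χ : GL (Fin n) F → ℂ) 1 = ∏ i ∈ Finset.Ico 1 n, ((Fintype.card F : ℂ) ^ i - 1) ∧
        ∀ m : ℕ, 0 < m → m < n →
          (∑ g : GL (Fin n) F, if (∀ i j : Fin n, ¬ (i.val < m ∧ m ≤ j.val) →
            (g : Matrix (Fin n) (Fin n) F) i j = (1 : Matrix (Fin n) (Fin n) F) i j)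
            then (χ : GL (Fin n) F → ℂ) g else 0) = 0} := by
  have hn0 : n ≠ 0 := by omega
  have hq1 : 1 < Fintype.card F := Fintype.one_lt_card
  have hq : 1 < Fintype.card F ^ n := Nat.one_lt_pow hn0 hq1
  set M := Fintype.card F ^ n - 1 with hM
  have : NeZero M := ⟨by omega⟩
  have : NeZero (M : F) := ⟨by
    rw [hM, Nat.cast_sub hq.le, Nat.cast_pow, FiniteField.cast_card_eq_zero, zero_pow hn0]
    simp⟩
  set N := Nat.card (GL (Fin n) F) * M with hN
  have : NeZero N := ⟨mul_ne_zero Nat.card_pos.ne' (NeZero.ne M)⟩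
  have hMN : M ∣ N := dvd_mul_left _ _
  have hG : ∀ g : GL (Fin n) F, g ^ N = 1 := fun g => by rw [hN, pow_mul, pow_card_eq_one', one_pow]
  obtain ⟨t⟩ := exists_th (AlgebraicClosure F) N
  obtain ⟨ζ, hζ⟩ := HasEnoughRootsOfUnity.exists_primitiveRoot (AlgebraicClosure F) M
  have h1 : ∀ u : (ZMod M)ˣ, ∃ a : ℕ, a.Coprime N ∧ (a : ZMod M) = u := fun u => by
    obtain ⟨w, rfl⟩ := ZMod.unitsMap_surjective hMN u
    exact ⟨(w : ZMod N).val, ZMod.val_coe_unit_coprime w, ZMod.natCast_val _⟩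
  choose a ha hau using h1
  have h2 : ∀ u, classInner (cχ F n (t.pow _ (ha u))) (cχ F n (t.pow _ (ha u))) = 1 := fun u => by
    rw [inner_cχ hn0 t hζ hMN, Nat.cast_eq_one, Finset.card_eq_one]
    refine ⟨0, Finset.eq_singleton_iff_unique_mem.2 ⟨Finset.mem_filter.2 ⟨Finset.mem_range.2
      (by omega), by rw [pow_zero, one_mul]⟩, fun i hi => ?_⟩⟩
    rw [Finset.mem_filter, Finset.mem_range] at hi
    have b1 : Fintype.card F ^ i ≡ 1 [MOD M] :=
      Nat.ModEq.cancel_right_of_coprime (Nat.Coprime.of_dvd_right hMN (ha u)).symm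
        (by simpa using hi.2)
    have b2 := Nat.one_le_pow i _ (Nat.zero_lt_of_lt hq1)
    have b3 := Nat.pow_lt_pow_right hq1 hi.1
    have b4 := Nat.eq_zero_of_dvd_of_lt ((Nat.modEq_iff_dvd' b2).1 b1.symm) (by omega)
    by_contra h
    have := Nat.one_lt_pow h hq1
    omega
  have h3 : ∀ u, IsIrrCharacter _ (cχ F n (t.pow _ (ha u))) := fun u => by
    refine H6.isIrr_of_gen_of_inner_self (isGen_cχ _ hG) (h2 u) ?_
    rw [cχ_one hn0, Finset.prod_congr rfl (g := fun i => ((Fintype.card F ^ i - 1 : ℕ) : ℂ))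
      fun i _ => by rw [Nat.cast_sub (Nat.one_le_pow i _ (by omega))]; simp, ← Nat.cast_prod]
    exact Nat.cast_nonneg _
  refine Nat.div_le_of_le_mul ?_
  rw [← ZMod.card_units_eq_totient, Nat.card_eq_fintype_card, ← Finset.card_univ,
    ← Finset.card_univ]
  refine Finset.card_le_mul_card_image_of_maps_to (f := fun u => ⟨⟨_, h3 u⟩, cχ_one hn0 _,
    fun m h0 hm => ?_⟩) (fun _ _ => Finset.mem_univ _) n fun χ _ => ?_
  swap
  · simp only [cχ]
    simp only [← mul_ite_zero, ← Finset.mul_sum]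
    rw [sum_cusp (piT_mul _) h0 hm, mul_zero]
  · refine le_of_not_gt fun hlt => ?_
    obtain ⟨u, hu⟩ := Finset.card_pos.1 (Nat.zero_lt_of_lt hlt)
    refine hlt.not_ge ?_
    refine le_trans (Finset.card_le_card_of_injOn (t := (Finset.range n).image fun i =>
      (Fintype.card F : ZMod M) ^ i * u) Units.val (fun v hv => ?_) Units.val_injective.injOn)
      (Finset.card_image_le.trans (Finset.card_range n).le)
    have b1 : cχ F n (t.pow _ (ha v)) = cχ F n (t.pow _ (ha u)) := congrArg (·.1.1)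
      ((Finset.mem_filter.1 hv).2.trans (Finset.mem_filter.1 hu).2.symm)
    have b2 := inner_cχ hn0 t hζ hMN (ha u) (ha v)
    rw [b1, h2, eq_comm, Nat.cast_eq_one] at b2
    obtain ⟨i, hi⟩ := Finset.card_pos.1 (b2.symm ▸ one_pos)
    rw [Finset.mem_filter, ← ZMod.natCast_eq_natCast_iff] at hi
    refine Finset.mem_coe.2 (Finset.mem_image.2 ⟨i, hi.1, ?_⟩)
    rw [← hau, ← hau, ← hi.2]
    push_cast; rfl

end H64.Cusp
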